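import Cfsg.Agent.Char.RelGlaub
import Cfsg.Agent.Char.FrobSchur

/-!
The Weil involution `w = ∑ τ(a) a` attached to an abelian section of odd order; it gives an
isometry between characters of `G = A H` and characters of `H`.
-/

set_option autoImplicit false

namespace CF.Known

open Cfsg CF.Char CF.Clifford Subgroup
open scoped ComplexConjugate

variable {G : Type*} [Group G]

/-- The data of a canonical projective basis `τ(a) a` over the abelian section `A / N`. -/
structure Weil (N A H : Subgroup G) [A.Normal] (e : A →* A →* ℂˣ) (τ : A → ℂˣ) : Prop where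
  mul : ∀ a b, τ a * τ b = e a b * τ (a * b)
  alt : ∀ a, e a a = 1
  cj : ∀ h ∈ H, ∀ a, τ (MulAut.conjNormal h a) = τ a
  NA : N ≤ A
  NH : N ≤ H
  eN : ∀ n : A, n.1 ∈ N → e n = 1
  HA : ∀ x ∈ H, x ∈ A → x ∈ N
  sup : ∀ g, ∃ a ∈ A, ∃ h ∈ H, g = a * h
  odd : ∃ r, ∀ g : G, g ^ (2 * r) * g⁻¹ ∈ N

/-- `τ(x) x` acts trivially on `β` for `x` in `U`. -/
def Sc {A B : Type*} [Group A] [Group B] (τ : A → ℂˣ) (U : Subgroup A) (i : U → B) (β : B → ℂ) :
    Prop := ∀ x : U, ∀ g, τ x * β (i x * g) = β g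

/-- The trace of the Weil element times `g`. -/
noncomputable def wst {A : Subgroup G} [Fintype A] (τ : A → ℂˣ) (β : G → ℂ) (g : G) : ℂ :=
  ∑ a : A, τ a * β (a * g)

/-- `ξ` has odd multiplicity in the restriction of `χ`. -/
def OM {B : Type*} [Group B] [Fintype B] (j : B →* G) (χ : G → ℂ) (ξ : B → ℂ) : Prop :=
  ∃ k : ℕ, classInner (fun c => χ (j c)) ξ = k ∧ Odd k

namespace Weil

variable {N A H : Subgroup G} [A.Normal] {e : A →* A →* ℂˣ} {τ : A → ℂˣ} (W : Weil N A H e τ)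
include W

theorem one : τ 1 = 1 := by simpa using W.mul 1 1

theorem inv (a : A) : τ a⁻¹ = (τ a)⁻¹ :=
  eq_inv_of_mul_eq_one_right (by simpa [W.alt, W.one] using W.mul a a⁻¹)

theorem swap (a b : A) : e a b * e b a = 1 := by
  simpa [W.alt, mul_comm] using W.alt (a * b)

theorem sand (u a : A) : τ (u * a * u) = τ u * τ u * τ a := by
  have h := W.mul (u * a) u
  rw [map_mul, MonoidHom.mul_apply, W.alt, one_mul] at h
  rw [mul_right_comm, W.mul, mul_assoc (e u a), h, ← mul_assoc, W.swap, one_mul]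

theorem ker_mul {x : A} (hx : x ∈ e.ker) (a : A) : τ (x * a) = τ x * τ a ∧ τ (a * x) = τ a * τ x := by
  have h : e x a = 1 := by rw [hx]; rfl
  have := W.swap a x
  rw [h, mul_one] at this
  simp [W.mul, h, this]

theorem e_conj {h : G} (hh : h ∈ H) (a b : A) :
    e (MulAut.conjNormal h a) (MulAut.conjNormal h b) = e a b := by
  have := W.mul (MulAut.conjNormal h a) (MulAut.conjNormal h b)
  rw [← map_mul, W.cj h hh, W.cj h hh, W.cj h hh, W.mul] at this
  exact (mul_right_cancel this).symm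

theorem ker_conj (g : G) {x : A} (hx : x ∈ e.ker) :
    MulAut.conjNormal g x ∈ e.ker ∧ τ (MulAut.conjNormal g x) = τ x := by
  obtain ⟨a, ha, h, hh, rfl⟩ := W.sup g
  have h1 : MulAut.conjNormal h x ∈ e.ker := MonoidHom.ext fun b => by
    obtain ⟨b, rfl⟩ := (MulAut.conjNormal h).surjective b
    rw [W.e_conj hh, hx]; rfl
  have h2 : MulAut.conjNormal (a * h) x = ⟨a, ha⟩ * MulAut.conjNormal h x * (⟨a, ha⟩ : A)⁻¹ :=
    Subtype.ext (by simp [mul_assoc])
  have h3 := e.normal_ker.conj_mem _ h1 ⟨a, ha⟩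
  have h4 := (W.ker_mul h3 ⟨a, ha⟩).1
  rw [inv_mul_cancel_right, (W.ker_mul h1 _).2, W.cj h hh, mul_comm] at h4
  exact h2 ▸ ⟨h3, (mul_right_cancel h4).symm⟩

variable [Fintype A]

theorem wst_left {x : A} (hx : x ∈ e.ker) (β : G → ℂ) (g : G) :
    τ x * wst τ β (x * g) = wst τ β g := by
  rw [wst, Finset.mul_sum]
  exact Fintype.sum_equiv (Equiv.mulRight x) _ _ fun a => by
    simp [(W.ker_mul hx a).2, mul_assoc, mul_left_comm]

theorem wst_right {x : A} (hx : x ∈ e.ker) (β : G → ℂ) (g : G) :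
    τ x * wst τ β (g * x) = wst τ β g := by
  obtain ⟨h1, h2⟩ := W.ker_conj g hx
  simpa [h2] using W.wst_left h1 β g

theorem wst_sand {β : G → ℂ} (hβ : IsClassFunction G β) (u : A) (g : G) :
    τ u * τ u * wst τ β (u * g * u) = wst τ β g := by
  rw [wst, Finset.mul_sum]
  exact Fintype.sum_equiv ((Equiv.mulLeft u).trans (Equiv.mulRight u)) _ _ fun a => by
    simp only [Equiv.trans_apply, Equiv.coe_mulLeft, Equiv.coe_mulRight, W.sand, coe_mul,
      Units.val_mul, ← mul_assoc]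
    rw [classFun_mul_comm hβ _ u]
    simp only [mul_assoc]

theorem wst_coset [N.Normal] {β γ : G → ℂ} (hβ : IsClassFunction G β) (hγ : IsClassFunction G γ)
    {a : G} (ha : a ∈ A) (h : G) :
    wst τ β (a * h) * wst τ γ (a * h)⁻¹ = wst τ β h * wst τ γ h⁻¹ := by
  obtain ⟨r, hr⟩ := W.odd
  have hu : h⁻¹ * (h * (a * h)) ^ r ∈ A := by
    have := (QuotientGroup.eq_one_iff _).2 (W.NA (hr h))
    rw [← QuotientGroup.eq_one_iff]
    simp only [QuotientGroup.mk_mul, QuotientGroup.mk_pow, QuotientGroup.mk_inv,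
      (QuotientGroup.eq_one_iff a).2 ha, one_mul, ← sq, ← pow_mul] at this ⊢
    rw [eq_of_mul_inv_eq_one this, inv_mul_cancel]
  have hn := Normal.conj_mem' ‹_› _ (hr (h * (a * h))) h
  set u : A := ⟨_, hu⟩
  set n : A := ⟨_, W.NA hn⟩
  have e1 : (u * h * u : G) = n * (a * h) := by simp [u, n, two_mul, pow_add, mul_assoc]
  have e2 : ((u⁻¹ : A) * h⁻¹ * (u⁻¹ : A) : G) = (a * h)⁻¹ * (n⁻¹ : A) := by
    rw [coe_inv, coe_inv, ← mul_inv_rev n.1, ← e1]; simp [mul_assoc]
  rw [← W.wst_sand hβ u h, ← W.wst_sand hγ u⁻¹ h⁻¹, e1, e2, ← W.wst_left (W.eN n hn) β,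
    ← W.wst_right (inv_mem (W.eN n hn)) γ (a * h)⁻¹, W.inv, W.inv]
  simp only [Units.val_inv_eq_inv_val]
  field_simp

theorem sq {V : Type*} [AddCommGroup V] [Module ℂ V] [Fintype e.ker] (f : A → V) :
    ∑ a, ∑ b, (τ a * τ b : ℂ) • f (a * b) = (Nat.card A : ℂ) • ∑ x : e.ker, (τ x : ℂ) • f x := by
  classical
  have h : ∀ a, ∑ b, (τ a * τ b : ℂ) • f (a * b) = ∑ x, (e x a⁻¹ * τ x : ℂ) • f x := fun a =>
    Fintype.sum_equiv (Equiv.mulLeft a) _ _ fun b => by
      rw [← Units.val_mul, W.mul]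
      simp [W.alt, eq_inv_of_mul_eq_one_left (W.swap a b)]
  have k : ∀ x, ∑ a, (e x a⁻¹ : ℂ) = if x ∈ e.ker then (Nat.card A : ℂ) else 0 := fun x => by
    refine (Equiv.sum_comp (Equiv.inv A) fun a => (e x a : ℂ)).trans
      ((sum_hom_units ((Units.coeHom ℂ).comp (e x))).trans ?_)
    rw [Nat.card_eq_fintype_card, Nat.cast_ite, Nat.cast_zero]
    exact if_congr ⟨fun h => MonoidHom.ext fun a => Units.ext (DFunLike.congr_fun h a),
      fun h => by rw [h]; rfl⟩ rfl rfl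
  simp only [h]
  rw [Finset.sum_comm, Finset.smul_sum]
  simp only [mul_smul, ← Finset.sum_smul, k, ite_smul, zero_smul]
  rw [← Finset.sum_filter]
  exact Finset.sum_subtype _ (by simp) _

variable [Fintype G] [Fintype e.ker]

theorem sum_ker {β : G → ℂ} (hβ : IsIrrCharacter G β) (g : G) :
    ∑ x : e.ker, τ x * β (x * g) = (∑ x : e.ker, τ x * β x) / β 1 * β g := by
  classical
  let f : G → ℂ := fun g => if h : g ∈ A then if ⟨g, h⟩ ∈ e.ker then τ ⟨g, h⟩ else 0 else 0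
  have h : ∀ F : G → ℂ, ∑ g, f g * F g = ∑ x : e.ker, τ x * F x := fun F =>
    (Fintype.sum_of_injective (fun x : e.ker => x.1.1)
      (Subtype.val_injective.comp Subtype.val_injective) _ _ (fun g hg => by
        by_cases a : g ∈ A
        · by_cases b : ⟨g, a⟩ ∈ e.ker
          · exact (hg ⟨⟨_, b⟩, rfl⟩).elim
          · simp only [f, dif_pos a, if_neg b, zero_mul]
        · simp only [f, dif_neg a, zero_mul]) fun x => by simp only [f, dif_pos x.1.2, if_pos x.2]).symm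
  rw [← h fun x => β (x * g), ← h β]
  refine sum_classFun_mul_irr (fun x y => ?_) hβ g
  by_cases a : x ∈ A
  · have a' := Normal.conj_mem ‹_› x a y
    simp only [f, dif_pos a, dif_pos a']
    by_cases b : ⟨x, a⟩ ∈ e.ker
    · rw [if_pos b, ← (W.ker_conj y b).2]
      exact if_pos (W.ker_conj y b).1
    · rw [if_neg b, if_neg fun c => b (by
        convert (W.ker_conj y⁻¹ c).1 using 1; ext; simp [mul_assoc])]
  · have : y * x * y⁻¹ ∉ A := fun c => a (by simpa [mul_assoc] using Normal.conj_mem' ‹_› _ c y)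
    simp only [f, dif_neg a, dif_neg this]

theorem sc_of_ne {β : G → ℂ} (hβ : IsIrrCharacter G β) (h : ∑ x : e.ker, τ x * β x ≠ 0) :
    Sc τ e.ker (fun x => x.1.1) β := fun x g => by
  refine mul_left_cancel₀ (div_ne_zero h (irr_one_ne_zero hβ)) ?_
  rw [mul_left_comm, ← W.sum_ker hβ, ← W.sum_ker hβ, Finset.mul_sum]
  exact Fintype.sum_equiv (Equiv.mulRight x) _ _ fun y => by
    simp [(W.ker_mul y.2 x).1, mul_assoc, mul_left_comm]

theorem sc_of_wst {β : G → ℂ} (hβ : IsIrrCharacter G β) {g : G} (h : wst τ β g ≠ 0) :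
    Sc τ e.ker (fun x => x.1.1) β := W.sc_of_ne hβ fun h0 => h <| by
  have : (Nat.card e.ker : ℂ) * wst τ β g = ∑ a : A, τ a * ∑ x : e.ker, τ x * β (x * (a * g)) := by
    simp only [Finset.mul_sum]
    rw [Finset.sum_comm, Nat.card_eq_fintype_card, ← nsmul_eq_mul, ← Finset.card_univ,
      ← Finset.sum_const]
    exact Finset.sum_congr rfl fun x _ => (Fintype.sum_equiv (Equiv.mulLeft x.1) _ _ fun a => by
      simp [(W.ker_mul x.2 a).1, mul_assoc, mul_left_comm]).symm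
  exact (mul_eq_zero.1 (this.trans (by simp [W.sum_ker hβ, h0]))).resolve_left card_ne_zero_complex

omit [Fintype G] in
theorem exists_char [Finite G] {β : G → ℂ} (hβ : IsCharacter G β)
    (h : Sc τ e.ker (fun x => x.1.1) β) {κ : ℂ} (hκ : κ * κ * (Nat.card A * Nat.card e.ker) = 1) :
    IsCharacter H fun x => (β x + κ * wst τ β x) / 2 := by
  obtain ⟨n, ρ, rfl⟩ := hβ
  have h1 : ∀ x : e.ker, (τ x : ℂ) • ρ x = 1 := fun x => by
    obtain ⟨c, hc⟩ := (mem_charCenter_character ρ (g := x)).1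
      ⟨(τ x)⁻¹, fun g => by rw [← h x g, Units.inv_mul_cancel_left]⟩
    have := h x 1
    rcases n with _ | n
    · exact Subsingleton.elim _ _
    simp only [mul_one, Representation.character, hc, map_smul, map_one, smul_eq_mul,
      LinearMap.trace_id, LinearMap.trace_one, ← mul_assoc] at this
    rw [hc, smul_smul, (mul_eq_right₀ (by simp; norm_cast)).1 this, one_smul, Module.End.one_eq_id]
  set w : Module.End ℂ (Fin n → ℂ) := κ • ∑ a : A, (τ a : ℂ) • ρ a with hw
  have h2 : w * w = 1 := by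
    have := W.sq fun a => ρ a
    simp only [h1, coe_mul, map_mul, Finset.sum_const, Finset.card_univ] at this
    simp only [hw, smul_mul_smul_comm, Finset.sum_mul_sum, this]
    rw [← Nat.cast_smul_eq_nsmul ℂ, smul_smul, smul_smul, ← Nat.card_eq_fintype_card, mul_assoc, hκ,
      one_smul]
  have h3 : ∀ x : H, w * ρ x = ρ x * w := fun x => by
    simp only [hw, smul_mul_assoc, mul_smul_comm, Finset.sum_mul, Finset.mul_sum]
    refine congrArg _ (Fintype.sum_equiv (MulAut.conjNormal (x : G)).toEquiv _ _ fun a => ?_).symm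
    simp [W.cj x x.2, ← map_mul]
  convert char_trace_idem (ρ.comp H.subtype) ((2⁻¹ : ℂ) • (1 + w)) ?_ fun x => ?_ using 2 with x
  · simp [← Module.End.mul_eq_comp, hw, add_mul, Finset.sum_mul, ← map_mul, wst,
      Representation.character, div_eq_inv_mul, mul_add]
  · simp only [← Module.End.mul_eq_comp, smul_mul_smul_comm, add_mul, mul_add, h2, one_mul, mul_one]
    module
  · simp [← Module.End.mul_eq_comp, add_mul, mul_add, h3]

theorem inner_wst [N.Normal] [Fintype H] {β γ : G → ℂ} (hβ : IsIrrCharacter G β)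
    (hγ : IsIrrCharacter G γ) (h : Sc τ e.ker (fun x => x.1.1) β) :
    (Nat.card H : ℂ)⁻¹ * ∑ x : H, wst τ β x * wst τ γ x⁻¹ =
      if β = γ then (Nat.card A * Nat.card e.ker : ℂ) else 0 := by
  classical
  have := Fintype.ofFinite (G ⧸ A)
  let T : G ⧸ A → ℂ := fun q => wst τ β q.out * wst τ γ q.out⁻¹
  have hT : ∀ g : G, T g = wst τ β g * wst τ γ g⁻¹ := fun g => by
    simpa using W.wst_coset (irr_isClassFunction hβ) (irr_isClassFunction hγ)
      (QuotientGroup.eq_iff_div_mem.1 (QuotientGroup.out_eq' (g : G ⧸ A))) g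
  have h1 := inner_comp_surjective ((QuotientGroup.mk' A).comp H.subtype) (fun q => by
    obtain ⟨g, rfl⟩ := QuotientGroup.mk_surjective q
    obtain ⟨a, ha, x, hx, rfl⟩ := W.sup g
    exact ⟨⟨x, hx⟩, by simp [(QuotientGroup.eq_one_iff a).2 ha]⟩) T fun _ => 1
  rw [← inner_comp_surjective _ (QuotientGroup.mk'_surjective A)] at h1
  simp only [inner_def, map_one, mul_one, MonoidHom.comp_apply, QuotientGroup.mk'_apply,
    coe_subtype, hT] at h1
  have h2 : ∀ a b : A, ∑ g, β (a * g) * γ (b * g⁻¹) =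
      if β = γ then Nat.card G * β (a * b) / β 1 else 0 := fun a b => by
    rw [← sum_irr_mul_irr_inv hβ hγ]
    exact Fintype.sum_equiv (Equiv.mulLeft (a : G)) _ _ fun g => by
      rw [classFun_mul_comm (irr_isClassFunction hγ)]; simp [mul_assoc]
  have h3 := W.sq fun a => β a
  have h4 : ∀ x : e.ker, τ x * β x = β 1 := fun x => by simpa using h x 1
  simp only [smul_eq_mul, h4, coe_mul, Finset.sum_const, Finset.card_univ, nsmul_eq_mul,
    ← Nat.card_eq_fintype_card] at h3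
  simp only [h1]
  simp only [wst, Finset.sum_mul_sum, mul_mul_mul_comm _ (β _)]
  rw [Finset.sum_comm]
  simp only [Finset.sum_comm (s := (Finset.univ : Finset G)), ← Finset.mul_sum, h2]
  split_ifs
  · simp only [mul_div_assoc', mul_left_comm _ (Nat.card G : ℂ), ← Finset.sum_div,
      ← Finset.mul_sum, h3]
    field_simp [irr_one_ne_zero hβ, card_ne_zero_complex]
  · simp

variable [N.Normal] [Fintype H]

theorem exists_corr {β : G → ℂ} (hβ : IsIrrCharacter G β) (h : Sc τ e.ker (fun x => x.1.1) β) :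
    ∃ (γ : H → ℂ) (c : ℂ), IsIrrCharacter H γ ∧ c ≠ 0 ∧ (∀ x : H, wst τ β x = c * γ x) ∧
      ∀ ξ, IsIrrCharacter H ξ → (OM H.subtype β ξ ↔ γ = ξ) := by
  classical
  have h0 : (Nat.card A * Nat.card e.ker : ℂ) ≠ 0 :=
    mul_ne_zero card_ne_zero_complex card_ne_zero_complex
  obtain ⟨κ, hκ⟩ := IsAlgClosed.exists_eq_mul_self (Nat.card A * Nat.card e.ker : ℂ)⁻¹
  have k0 : κ ≠ 0 := by rintro rfl; exact inv_ne_zero h0 (by simpa using hκ)
  have h1 := W.exists_char (irr_isCharacter hβ) h (κ := κ) (by rw [← hκ, inv_mul_cancel₀ h0])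
  have h2 := char_restrict (irr_isCharacter hβ) H
  have h3 : IsGeneralizedCharacter H fun x => κ * wst τ β x := by
    convert gen_sub (gen_nsmul (gen_of_char h1) 2) (gen_of_char h2) using 2
    simp; ring
  have h4 : ∃ ε : ℤ, (ε = 1 ∨ ε = -1) ∧ IsIrrCharacter H ((ε : ℂ) • fun x : H => κ * wst τ β x) := by
    refine (irr_or_neg_irr_of_inner_self h3 ?_).elim (fun h => ⟨1, .inl rfl, by simpa using h⟩)
      fun h => ⟨-1, .inr rfl, by simpa using h⟩
    have := W.inner_wst hβ hβ h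
    rw [if_pos rfl] at this
    simp only [inner_eq_sum_inv h3, mul_mul_mul_comm _ (wst τ β _), ← Finset.mul_sum, coe_inv]
    rw [mul_left_comm, this, ← hκ, inv_mul_cancel₀ h0]
  obtain ⟨ε, e1, e2⟩ := h4
  have e0 : (ε : ℂ) ≠ 0 := by rcases e1 with rfl | rfl <;> simp
  refine ⟨_, (ε * κ)⁻¹, e2, inv_ne_zero (mul_ne_zero e0 k0), fun x => ?_, fun ξ hξ => ?_⟩
  · simp only [Pi.smul_apply, smul_eq_mul]; field_simp
  obtain ⟨k, hk⟩ := inner_char_eq_nat h2 (irr_isCharacter hξ)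
  obtain ⟨l, hl⟩ := inner_char_eq_nat h1 (irr_isCharacter hξ)
  have h5 := inner_irr e2 hξ
  have h6 : classInner (fun x : H => κ * wst τ β x) ξ = 2 * l - k := by
    rw [← hk, ← hl, ← Char.inner_smul_left, ← Char.inner_sub_left]
    congr 1; ext; simp; ring
  rw [Char.inner_smul_left, h6] at h5
  refine Iff.trans ⟨fun ⟨m, a, b⟩ => by rwa [Nat.cast_inj.1 (hk.symm.trans a)],
    fun h : Odd k => ⟨k, hk, h⟩⟩ ?_
  split_ifs at h5 with h7
  · have : ε * (2 * l - k) = 1 := by exact_mod_cast h5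
    simp only [h7, iff_true, Nat.odd_iff]
    rcases e1 with rfl | rfl <;> omega
  · have : ε * (2 * l - k) = 0 := by exact_mod_cast h5
    simp only [h7, iff_false, Nat.odd_iff]
    rcases e1 with rfl | rfl <;> omega

theorem eq_of_corr {β β' : G → ℂ} (hβ : IsIrrCharacter G β) (hβ' : IsIrrCharacter G β')
    (h : Sc τ e.ker (fun x => x.1.1) β) {γ : H → ℂ} (hγ : IsIrrCharacter H γ) {c c' : ℂ}
    (hc : c ≠ 0) (hc' : c' ≠ 0) (h1 : ∀ x : H, wst τ β x = c * γ x)
    (h2 : ∀ x : H, wst τ β' x = c' * γ x) : β = β' := by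
  by_contra h0
  have := W.inner_wst hβ hβ' h
  have k := inner_irr_self hγ
  simp only [if_neg h0, ← coe_inv, h1, h2, mul_mul_mul_comm _ (γ _), ← Finset.mul_sum] at this
  rw [mul_left_comm, ← inner_eq_sum_inv (gen_of_irr hγ), k, mul_one] at this
  exact mul_ne_zero hc hc' this

theorem exists_inner_ne {γ : H → ℂ} (hγ : IsIrrCharacter H γ)
    (h : Sc τ (N.subgroupOf A) (fun x => ⟨x.1.1, W.NH x.2⟩) γ) :
    ∃ β, IsIrrCharacter G β ∧ ∑ x : H, wst τ β x * γ x⁻¹ ≠ 0 := by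
  classical
  by_contra! h0
  have h1 : ∑ β : IrrCharacter G, β.1 1 * ∑ x : H, wst τ β x * γ x⁻¹ =
      ∑ a : A, ∑ x : H, τ a * γ x⁻¹ * regChar G (a * x) := by
    simp only [wst, Finset.mul_sum, Finset.sum_mul, ← sum_irr_one_mul]
    rw [Finset.sum_comm, Finset.sum_comm (s := (Finset.univ : Finset A))]
    refine Finset.sum_congr rfl fun x _ => Finset.sum_comm.trans ?_
    simp only [mul_assoc, mul_left_comm, mul_comm]
  have h2 : ∀ a : A, ∑ x : H, τ a * γ x⁻¹ * regChar G (a * x) =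
      if a.1 ∈ N then γ 1 * Nat.card G else 0 := fun a => by
    split_ifs with ha
    · rw [Finset.sum_eq_single ⟨a.1, W.NH ha⟩⁻¹ (fun x _ hx => ?_) (by simp)]
      · simpa [regChar_one] using h ⟨a, ha⟩ 1
      · rw [regChar_of_ne fun c => hx (Subtype.ext (eq_inv_of_mul_eq_one_right c)), mul_zero]
    · refine Finset.sum_eq_zero fun x _ => ?_
      rw [regChar_of_ne fun c : a.1 * x = 1 =>
        ha (W.HA _ ((mul_mem_cancel_right x.2).1 (c ▸ one_mem H)) a.2),
        mul_zero]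
  simp only [h0 _ (Subtype.prop _), mul_zero, Finset.sum_const_zero, h2, ← Finset.sum_filter,
    Finset.sum_const, nsmul_eq_mul] at h1
  refine mul_ne_zero (Nat.cast_ne_zero.2 (Finset.card_ne_zero.2 ⟨1, by simp⟩))
    (mul_ne_zero (irr_one_ne_zero hγ) card_ne_zero_complex) h1.symm

omit [Fintype e.ker] [Fintype H] in
theorem bij {S : Type*} [Group S] [Fintype H] (φ : S →* MulAut G) (hA : ∀ s, ∀ x ∈ A, φ s x ∈ A)
    (hH : ∀ s, ∀ x ∈ H, φ s x ∈ H) (hτ : ∀ s a, τ (resAut φ A hA s a) = τ a)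
    (key : ∀ β, IsIrrCharacter G β → Sc τ (N.subgroupOf A) (fun x => x.1.1) β →
      InvA (Set.range φ) β → Sc τ e.ker (fun x => x.1.1) β) :
    Bij (OM H.subtype) (fun β => Sc τ (N.subgroupOf A) (fun x => x.1.1) β ∧ InvA (Set.range φ) β)
      fun γ => Sc τ (N.subgroupOf A) (fun x => ⟨x.1.1, W.NH x.2⟩) γ ∧
        InvA (Set.range (resAut φ H hH)) γ := by
  have := Fintype.ofFinite e.ker
  have h1 : ∀ s β g, wst τ (fun x => β (φ s x)) g = wst τ β (φ s g) := fun s β g =>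
    Fintype.sum_equiv (resAut φ A hA s).toEquiv _ _ fun a => by simp [hτ]
  refine ⟨fun β a b => ?_, fun β γ ξ a b c d _ _ f g => ?_, fun β β' γ a b c d d' _ f g => ?_,
    fun γ a b => ?_⟩
  · obtain ⟨γ, c, h2, h3, h4, h5⟩ := W.exists_corr a (key β a b.1 b.2)
    refine ⟨γ, h2, ⟨fun x g => mul_left_cancel₀ h3 ?_, invA_range.2 fun s g =>
      mul_left_cancel₀ h3 ?_⟩, (h5 γ h2).2 rfl⟩
    · rw [mul_left_comm, ← h4, ← h4]
      exact W.wst_left (W.eN x x.2) β g
    · simp only [← h4, coe_resAut, ← h1, invA_range.1 b.2 s]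
  · obtain ⟨γ, -, -, -, -, h5⟩ := W.exists_corr a (key β a d.1 d.2)
    exact ((h5 _ b).1 f).symm.trans ((h5 _ c).1 g)
  · obtain ⟨γ, x, h2, h3, h4, h5⟩ := W.exists_corr a (key β a d.1 d.2)
    obtain ⟨γ', x', -, k3, k4, k5⟩ := W.exists_corr b (key β' b d'.1 d'.2)
    obtain rfl := ((h5 _ c).1 f).trans ((k5 _ c).1 g).symm
    exact W.eq_of_corr a b (key β a d.1 d.2) h2 h3 k3 h4 k4
  · obtain ⟨β, c, d⟩ := W.exists_inner_ne a b.1
    obtain ⟨x, -, hx⟩ := Finset.exists_ne_zero_of_sum_ne_zero d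
    have k := W.sc_of_wst c (left_ne_zero_of_mul hx)
    obtain ⟨γ', x, h2, h3, h4, h5⟩ := W.exists_corr c k
    obtain rfl : γ' = γ := irr_eq_of_inner_ne_zero h2 a fun h0 => d <| by
      rw [inner_eq_sum_inv (gen_of_irr a), mul_eq_zero] at h0
      simp only [h4, mul_assoc, ← Finset.mul_sum,
        h0.resolve_left (inv_ne_zero card_ne_zero_complex), mul_zero]
    exact ⟨β, c, ⟨fun y g => k ⟨y, W.eN y y.2⟩ g, invA_range.2 fun s => congrFun
      (W.eq_of_corr c (irr_comp_equiv c (φ s)) k a h3 h3 h4 fun y => by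
        rw [h1, ← invA_range.1 b.2 s y, ← h4]; rfl).symm⟩, (h5 _ a).2 rfl⟩

end Weil

end CF.Known
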