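import Cfsg.Agent.Known.Isaacs1
import Cfsg.Agent.Schur.Proj
import Cfsg.Agent.Clifford.GlaubApp
import Cfsg.Agent.Coprime.Action

/-!
The Isaacs correspondence for one abelian step, over an invariant linear character.
-/

set_option autoImplicit false

namespace CF.Known

open Cfsg CF.Char CF.Clifford CF.Coprime Subgroup
open scoped ComplexConjugate

/-- The central extension of `A` by `ℂˣ` defined by a bicharacter. -/
@[ext] structure Tw {A : Type*} [Group A] (e : A →* A →* ℂˣ) where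
  /-- scalar part -/
  z : ℂˣ
  /-- group part -/
  a : A

namespace Tw

variable {A : Type*} [Group A] {e : A →* A →* ℂˣ}

instance : Mul (Tw e) := ⟨fun x y => ⟨x.z * y.z * e x.a y.a, x.a * y.a⟩⟩
instance : One (Tw e) := ⟨⟨1, 1⟩⟩
instance : Inv (Tw e) := ⟨fun x => ⟨x.z⁻¹ * e x.a x.a, x.a⁻¹⟩⟩

@[simp] theorem mul_z (x y : Tw e) : (x * y).z = x.z * y.z * e x.a y.a := rfl
@[simp] theorem mul_a (x y : Tw e) : (x * y).a = x.a * y.a := rfl
@[simp] theorem one_z : (1 : Tw e).z = 1 := rfl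
@[simp] theorem one_a : (1 : Tw e).a = 1 := rfl
@[simp] theorem inv_z (x : Tw e) : x⁻¹.z = x.z⁻¹ * e x.a x.a := rfl
@[simp] theorem inv_a (x : Tw e) : x⁻¹.a = x.a⁻¹ := rfl

instance : Group (Tw e) := Group.ofLeftAxioms
  (fun x y z => Tw.ext (by simp; ac_rfl) (by simp [mul_assoc])) (fun x => Tw.ext (by simp) (by simp))
  fun x => Tw.ext (by simp [mul_right_comm]) (by simp)

theorem exists_tau (N : Subgroup A) (m : A → ℂˣ) (hm : ∀ x ∈ N, ∀ y ∈ N, m (x * y) = m x * m y)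
    (h1 : ∀ n ∈ N, e n = 1) (h2 : ∀ a b, a * b * a⁻¹ * b⁻¹ ∈ N)
    (h3 : ∀ a b, m (a * b * a⁻¹ * b⁻¹) * e b a = e a b) (h4 : ∀ a, e a a = 1) :
    ∃ τ : A → ℂˣ, (∀ a b, τ a * τ b = e a b * τ (a * b)) ∧ ∀ n ∈ N, τ n = (m n)⁻¹ := by
  have m1 : m 1 = 1 := by simpa using hm 1 N.one_mem 1 N.one_mem
  let K : Subgroup (Tw e) :=
    { carrier := {x | x.a ∈ N ∧ x.z = m x.a}
      one_mem' := ⟨N.one_mem, m1.symm⟩
      mul_mem' := fun {x y} a b => ⟨N.mul_mem a.1 b.1, by simp [a.2, b.2, h1 _ a.1, hm _ a.1 _ b.1]⟩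
      inv_mem' := fun {x} a => ⟨N.inv_mem a.1, by
        simpa [a.2, h4, m1, inv_eq_iff_mul_eq_one] using (hm _ a.1 _ (N.inv_mem a.1)).symm⟩ }
  have hK : commutator (Tw e) ≤ K := commutator_le.2 fun x _ y _ => ⟨h2 _ _, by
    have k := h4 (x.a * y.a)
    simp only [map_mul, MonoidHom.mul_apply, h4, one_mul, mul_one] at k
    simp only [commutatorElement_def, mul_a, inv_a, eq_mul_inv_of_mul_eq (h3 x.a y.a)]
    ext
    simp [h4, eq_inv_of_mul_eq_one_left k]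
    field_simp⟩
  haveI : K.Normal := Normal.of_commutator_le _ hK
  letI : CommGroup (Tw e ⧸ K) := { mul_comm := (Normal.quotient_commutative_iff_commutator_le.2 hK).is_comm.comm }
  let i : ℂˣ →* Tw e := MonoidHom.mk' (fun z => ⟨z, 1⟩) fun _ _ => Tw.ext (by simp) (by simp)
  obtain ⟨g, hg⟩ := Schur.exists_extend_of_divisible mul_comm (fun n hn (d : ℂˣ) => by
    obtain ⟨w, hw⟩ := IsAlgClosed.exists_pow_nat_eq d.1 (Nat.pos_of_ne_zero hn)
    exact ⟨Units.mk0 w (by rintro rfl; exact d.ne_zero (by rw [← hw, zero_pow hn])), Units.ext hw⟩)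
    ((QuotientGroup.mk' K).comp i) ((injective_iff_map_eq_one _).2 fun z hz =>
      ((QuotientGroup.eq_one_iff _).1 hz).2.trans m1) (.id _)
  replace hg : ∀ z, g (i z) = z := DFunLike.congr_fun hg
  refine ⟨fun a => g (⟨1, a⟩ : Tw e), fun a b => ?_, fun n hn => ?_⟩
  · rw [← hg (e a b), ← map_mul, ← map_mul, ← QuotientGroup.mk_mul, ← QuotientGroup.mk_mul]
    exact congrArg (fun x : Tw e => g x) (Tw.ext (by simp [i]) (by simp [i]))
  · rw [eq_inv_iff_mul_eq_one, mul_comm, ← hg (m n), ← map_mul, ← QuotientGroup.mk_mul,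
      (QuotientGroup.eq_one_iff (N := K) _).2 ⟨by simpa [i], by simp [i]⟩, map_one]

end Tw

variable {G S Q : Type*} [Group G] [Group S] [Group Q]

/-- A normal embedding into a semidirect product. -/
def sdEmb (E : NormalEmb Q G) (φ : S →* MulAut G) (ψ : S →* MulAut Q)
    (e : ∀ s q, φ s (E.ι q) = E.ι (ψ s q)) : NormalEmb Q (G ⋊[φ] S) where
  ι := SemidirectProduct.inl.comp E.ι
  c := SemidirectProduct.lift E.c ψ fun s => MonoidHom.ext fun g => MulEquiv.ext fun q => by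
    obtain ⟨q, rfl⟩ := (ψ s).surjective q
    simpa using cj_aut E _ _ (e s) g q
  inj := SemidirectProduct.inl_injective.comp E.inj
  ι_c g q := by
    rw [← SemidirectProduct.inl_left_mul_inr_right g]
    simp only [map_mul, SemidirectProduct.lift_inl, SemidirectProduct.lift_inr, MulAut.mul_apply,
      MonoidHom.comp_apply, E.ι_c, ← e, map_inv, mul_inv_rev, SemidirectProduct.inl_aut, mul_assoc]

variable [Finite G] [Finite S]

theorem exists_inv_under' (E : NormalEmb Q G) (φ : S →* MulAut G) (ψ : S →* MulAut Q)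
    (e : ∀ s q, φ s (E.ι q) = E.ι (ψ s q)) (cop : E.index.Coprime (Nat.card S))
    [Group.IsSolvable G] {χ : G → ℂ} (hχ : IsIrrCharacter G χ) (hi : InvA (Set.range φ) χ) :
    ∃ θ, IsIrrCharacter Q θ ∧ Ov E.ι θ χ ∧ ∀ s q, θ (ψ s q) = θ q := by
  have := Finite.of_injective _ E.inj
  obtain ⟨θ, a, b⟩ := exists_ov E.ι hχ
  let F := sdEmb E φ ψ e
  have r : F.ι.range = sdL φ E.ι.range := MonoidHom.range_comp _ _
  obtain ⟨_, ⟨k, -, rfl⟩, f⟩ := exists_conj_mem_rel F.ι.range (sdR φ ⊤) (sdL φ ⊤) (F.inertia θ)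
    (F.range_le_inertia (irr_isClassFunction a)) le_normalizer_of_normal
    (by rw [card_sdR, card_top, r, relIndex_sdL, relIndex_top_right]; exact cop.symm)
    (.inr (by
      have := (isSolvable_sdL_iff φ (H := ⊤)).2 inferInstance
      exact Group.isSolvable_of_surjective (MonoidHom.subgroupMap_surjective _ _))) (by
    rintro _ ⟨s, -, rfl⟩
    obtain ⟨g, hg⟩ := b.exists_cj (φ := fun q => θ (ψ s⁻¹ q)) (by
      have := (ov_comp_aut (φ s⁻¹) (ψ s⁻¹).toEquiv (e s⁻¹)).2 b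
      rwa [funext (invA_range.1 hi s⁻¹)] at this) hχ a
      (irr_comp_equiv a _)
    refine ⟨_, ⟨g⁻¹, trivial, rfl⟩, F.mem_inertia'.2 fun q => ?_⟩
    simpa [F, sdEmb, NormalEmb.cj_apply] using congrFun hg (ψ s q))
  refine ⟨_, E.cj_irr a k⁻¹, (ov_cj E (irr_isClassFunction hχ) _).2 b, fun s q => ?_⟩
  simpa [F, sdEmb, NormalEmb.cj_apply] using F.mem_inertia'.1 (f _ ⟨s, trivial, rfl⟩) (E.c k⁻¹ q)

/-- The setting of one abelian step of the Isaacs correspondence. -/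
structure ISet (φ : S →* MulAut G) (N A H : Subgroup G) : Prop where
  nN : N.Normal
  nA : A.Normal
  NA : N ≤ A
  comm : ∀ a ∈ A, ∀ b ∈ A, a * b * a⁻¹ * b⁻¹ ∈ N
  iN : ∀ s, ∀ n ∈ N, φ s n ∈ N
  cA : ∀ s x, x⁻¹ * φ s x ∈ A
  fix : ∀ x, x ∈ H ↔ ∀ s, x⁻¹ * φ s x ∈ N
  HA : ∀ x ∈ H, x ∈ A → x ∈ N
  odd : Odd N.index
  cop : N.index.Coprime (Nat.card S)
  solv : Group.IsSolvable G

namespace ISet

variable {φ : S →* MulAut G} {N A H : Subgroup G} (h : ISet φ N A H)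
include h

omit [Finite G] [Finite S] in
theorem NH : N ≤ H := fun n hn => (h.fix n).2 fun s => mul_mem (inv_mem hn) (h.iN s n hn)

omit [Finite G] [Finite S] in
theorem iA (s : S) (x : G) (hx : x ∈ A) : φ s x ∈ A := (mul_mem_cancel_left (inv_mem hx)).1 (h.cA s x)

omit [Finite G] [Finite S] in
theorem iH (s : S) (x : G) (hx : x ∈ H) : φ s x ∈ H :=
  (mul_mem_cancel_left (inv_mem hx)).1 (h.NH ((h.fix x).1 hx s))

theorem rel {U : Subgroup G} (hN : N ≤ U) (hU : ∀ s, ∀ x ∈ U, φ s x ∈ U) {x : G}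
    (hx : ∀ s, x⁻¹ * φ s x ∈ U) : ∃ u ∈ U, x * u ∈ H := by
  haveI := h.nN
  haveI := h.solv
  obtain ⟨_, ⟨u, hu, rfl⟩, k⟩ := act_exists_mul_mem_fixSub (quotAct φ N h.iN) (B := ⊤)
    (H := U.map (QuotientGroup.mk' N)) (by rintro s - _ ⟨x, hx, rfl⟩; exact ⟨_, hU s x hx, rfl⟩)
    (coprime_sub h.cop.symm _ _) (.inr inferInstance) x fun s _ => ⟨_, hx s, rfl⟩
  exact ⟨u, hu, (h.fix _).2 fun s => QuotientGroup.eq.1 (k s trivial).symm⟩

theorem hom_eq_one {U : Type*} [Group U] (i : U →* G) (ψ : S →* MulAut U)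
    (e : ∀ s u, φ s (i u) = i (ψ s u)) (hN : N ≤ i.range) (hA : ∀ u, i u ∈ A) (f : U →* ℂˣ)
    (h1 : ∀ u, i u ∈ N → f u = 1) (h2 : ∀ s u, f (ψ s u) = f u) (x : U) : f x = 1 := by
  have k : N ≤ f.ker.map i := fun n hn => by
    obtain ⟨u, rfl⟩ := hN hn
    exact ⟨u, h1 u hn, rfl⟩
  obtain ⟨_, ⟨u, hu, rfl⟩, h3⟩ := h.rel k (by
    rintro s _ ⟨u, hu, rfl⟩
    exact ⟨ψ s u, (h2 s u).trans hu, (e s u).symm⟩) (x := i x)
    fun s => ⟨x⁻¹ * ψ s x, by simp [h2], by simp [e]⟩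
  simpa [show f u = 1 from hu] using
    h1 (x * u) (by simpa using h.HA _ h3 (mul_mem (hA x) (hA u)))

theorem exists_weil [A.Normal] (m : G → ℂˣ) (hm : ∀ x ∈ N, ∀ y ∈ N, m (x * y) = m x * m y)
    (hc : ∀ g, ∀ x ∈ N, m (g * x * g⁻¹) = m x) (hs : ∀ s, ∀ x ∈ N, m (φ s x) = m x) :
    ∃ e τ, Weil N A H e τ ∧ (∀ s a, τ (resAut φ A h.iA s a) = τ a) ∧
      ∀ n : A, n.1 ∈ N → τ n = (m n)⁻¹ := by
  haveI := h.nN
  haveI := Fintype.ofFinite S
  obtain ⟨r, hr⟩ := h.odd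
  have pw : ∀ g, g ^ N.index ∈ N := N.pow_index_mem
  have cm := fun a b : A => h.comm a a.2 b b.2
  have m1 : m 1 = 1 := by simpa using hm 1 N.one_mem 1 N.one_mem
  have mi : ∀ x ∈ N, m x * m x⁻¹ = 1 := fun x hx => by rw [← hm _ hx _ (inv_mem hx), mul_inv_cancel, m1]
  obtain ⟨c, hc'⟩ : ∃ c : A →* A →* ℂˣ, ∀ a b, c a b = m (a * b * (a : G)⁻¹ * (b : G)⁻¹) :=
    ⟨MonoidHom.mk' (fun a => MonoidHom.mk' (fun b => m (a * b * (a : G)⁻¹ * (b : G)⁻¹)) fun x y => by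
      rw [← hc x _ (cm a y), ← hm _ (cm a x) _ (Normal.conj_mem ‹_› _ (cm a y) _)]
      simp [mul_assoc]) fun a b => MonoidHom.ext fun x => by
      simp only [MonoidHom.mk'_apply, MonoidHom.mul_apply]
      rw [← hc a _ (cm b x), mul_comm (m _), ← hm _ (Normal.conj_mem ‹_› _ (cm b x) _) _ (cm a x)]
      simp [mul_assoc], fun _ _ => rfl⟩
  have cN : ∀ n : A, n.1 ∈ N → c n = 1 := fun n hn => MonoidHom.ext fun x => by
    rw [hc', mul_assoc, mul_assoc, ← mul_assoc x.1, hm _ hn _ (Normal.conj_mem ‹_› _ (inv_mem hn) _),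
      hc _ _ (inv_mem hn), mi _ hn]; rfl
  have cM : ∀ a b, c a b ^ N.index = 1 := fun a b => by
    rw [← MonoidHom.pow_apply, ← map_pow, cN _ (pw _)]; rfl
  have ca : ∀ a, c a a = 1 := fun a => by simp [hc', m1]
  have cs : ∀ a b, c a b * c b a = 1 := fun a b => by
    simpa only [map_mul, MonoidHom.mul_apply, ca, one_mul, mul_one, mul_comm] using ca (a * b)
  let e := c ^ (r + 1)
  have he : ∀ a b, e a b = c a b ^ (r + 1) := fun _ _ => rfl
  have eN : ∀ n : A, n.1 ∈ N → e n = 1 := fun n hn => MonoidHom.ext fun x => by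
    rw [he, cN n hn]; exact one_pow _
  have ea : ∀ a, e a a = 1 := fun a => by rw [he, ca, one_pow]
  obtain ⟨t, t1, t2⟩ := Tw.exists_tau (e := e) (N.subgroupOf A) (fun a => m a)
    (fun x a y b => hm x a y b) eN cm (fun a b => by
      have := cM a b
      rw [hr, pow_succ, two_mul, pow_add] at this
      rw [he, he, eq_inv_of_mul_eq_one_right (cs a b), inv_pow, mul_inv_eq_iff_eq_mul, pow_succ,
        mul_mul_mul_comm, ← mul_assoc, this, one_mul, hc']; rfl) ea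
  have rat : ∀ (t t' : A → ℂˣ), (∀ a b, t a * t b = e a b * t (a * b)) →
      (∀ a b, t' a * t' b = e a b * t' (a * b)) → ∃ ρ : A →* ℂˣ, ∀ a, ρ a = t a / t' a :=
    fun t t' a b => ⟨MonoidHom.mk' (fun x => t x / t' x) fun x y => by
      rw [div_mul_div_comm, a, b, mul_div_mul_left_eq_div], fun _ => rfl⟩
  let ψ := resAut φ A h.iA
  have eψ : ∀ s a b, e (ψ s a) (ψ s b) = e a b := fun s a b => by
    rw [he, he, hc', hc', ← hs s _ (cm a b)]; simp [ψ]
  have tM : ∀ s a, t (ψ s a) ^ N.index = t a ^ N.index := fun s a => by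
    obtain ⟨ρ, hρ⟩ := rat (fun a => t (ψ s a)) t (fun a b => by rw [t1, eψ, map_mul]) t1
    rw [← div_eq_one, ← div_pow, ← hρ, ← map_pow, hρ, t2 (a ^ _) (pw _), t2 _ (h.iN s _ (pw _)),
      div_eq_one]
    exact congrArg _ (hs s _ (pw _))
  obtain ⟨x, y, hxy⟩ := Nat.isCoprime_iff_coprime.2 h.cop
  let τ : A → ℂˣ := fun a => (t a ^ N.index) ^ x * (∏ s, t (ψ s a)) ^ y
  have k : ∀ z : ℂˣ, (z ^ N.index) ^ x * (z ^ Nat.card S) ^ y = z := fun z => by
    rw [← zpow_natCast, ← zpow_natCast, ← zpow_mul, ← zpow_mul, ← zpow_add, mul_comm _ x,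
      mul_comm _ y, hxy, zpow_one]
  have τ1 : ∀ a b, τ a * τ b = e a b * τ (a * b) := fun a b => by
    simp only [τ]
    rw [mul_mul_mul_comm, ← mul_zpow, ← mul_zpow, ← mul_pow, ← Finset.prod_mul_distrib]
    simp only [t1, eψ, ← map_mul, Finset.prod_mul_distrib, Finset.prod_const, Finset.card_univ,
      ← Nat.card_eq_fintype_card, mul_pow, mul_zpow]
    rw [mul_mul_mul_comm, k]
  have τ2 : ∀ n : A, n.1 ∈ N → τ n = (m n)⁻¹ := fun n hn => by
    have : ∀ s, t (ψ s n) = (m n)⁻¹ := fun s => by rw [t2 _ (h.iN s _ hn), ← hs s _ hn]; rfl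
    simp only [τ, this, t2 n hn, Finset.prod_const, Finset.card_univ, ← Nat.card_eq_fintype_card, k]
  have τ3 : ∀ s a, τ (ψ s a) = τ a := fun s a => by
    simp only [τ, tM, ← MulAut.mul_apply, ← map_mul]
    rw [← Equiv.prod_comp (Equiv.mulRight s) fun u => t (ψ u a)]; rfl
  refine ⟨e, τ, ⟨τ1, ea, fun g hg a => ?_, h.NA, h.NH, eN, h.HA, fun g => ?_, r + 1, fun g => ?_⟩,
    τ3, τ2⟩
  · obtain ⟨ρ, hρ⟩ := rat (fun a => τ (MulAut.conjNormal g a)) τ (fun a b => by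
      rw [τ1, map_mul, he, he, hc', hc', ← hc g _ (cm a b)]; simp [mul_assoc]) τ1
    rw [← div_eq_one, ← hρ]
    refine h.hom_eq_one A.subtype ψ (fun _ _ => rfl) (by simpa using h.NA) (fun u => u.2) ρ
      (fun n hn => ?_) (fun s u => ?_) a
    · rw [hρ, τ2 n hn, τ2 _ (Normal.conj_mem ‹_› _ hn g), div_eq_one]
      exact congrArg _ (hc g _ hn)
    · have hn := Normal.conj_mem ‹_› _ ((h.fix g).1 hg s⁻¹) g
      set n : A := ⟨_, h.NA hn⟩
      set w := MulAut.conjNormal g u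
      have e1 : MulAut.conjNormal g (ψ s u) = ψ s (n * w * n⁻¹) := by
        ext; simp [ψ, n, w, mul_assoc]
      have e2 := τ1 (n * w * n⁻¹) n
      have e3 := τ1 n w
      rw [eN n hn] at e3
      rw [he, eq_inv_of_mul_eq_one_left (cs _ n), cN n hn, inv_mul_cancel_right, ← e3.trans (one_mul _)] at e2
      rw [hρ, hρ, τ3, e1, τ3, mul_right_cancel (e2.trans (by simp [mul_comm]) : _ = τ w * τ n)]
  · obtain ⟨u, hu, k⟩ := h.rel h.NA h.iA (h.cA · g)
    exact ⟨g * u⁻¹ * g⁻¹, Normal.conj_mem ‹_› _ (inv_mem hu) g, g * u, k, by simp [mul_assoc]⟩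
  · rw [mul_add, mul_one, pow_succ, mul_inv_cancel_right, ← hr]
    exact pw g

theorem key [A.Normal] {e : A →* A →* ℂˣ} {τ : A → ℂˣ} (W : Weil N A H e τ)
    (hτ : ∀ s a, τ (resAut φ A h.iA s a) = τ a) {β : G → ℂ} (hβ : IsIrrCharacter G β)
    (h1 : Sc τ (N.subgroupOf A) (fun x => x.1.1) β) (h2 : InvA (Set.range φ) β) :
    Sc τ e.ker (fun x => x.1.1) β := by
  haveI := Fintype.ofFinite A
  haveI := Fintype.ofFinite G
  haveI := Fintype.ofFinite e.ker
  haveI := h.solv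
  let i := A.subtype.comp e.ker.subtype
  haveI : i.range.Normal := ⟨by
    rintro _ ⟨x, rfl⟩ g
    exact ⟨⟨_, (W.ker_conj g x.2).1⟩, rfl⟩⟩
  have hN : N ≤ i.range := fun n hn => ⟨⟨⟨n, h.NA hn⟩, W.eN _ hn⟩, rfl⟩
  let ψ := resAut (resAut φ A h.iA) e.ker fun s x hx => MonoidHom.ext fun y => by
    obtain ⟨y, rfl⟩ := (resAut φ A h.iA s).surjective y
    have := W.mul (resAut φ A h.iA s x) (resAut φ A h.iA s y)
    rw [← map_mul, hτ, hτ, hτ, (W.ker_mul hx y).1] at this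
    exact (mul_eq_right.1 this.symm :)
  let E := NormalEmb.ofInjective i (A.subtype_injective.comp e.ker.subtype_injective)
  obtain ⟨θ, a, b, c⟩ := exists_inv_under' E φ ψ (fun _ _ => rfl)
    (h.cop.coprime_dvd_left (index_dvd_of_le hN)) hβ h2
  let t : e.ker →* ℂˣ := MonoidHom.mk' (fun x => τ x) fun x y => (W.ker_mul x.2 _).1
  have n1 : ∀ x, (t x : ℂ) * conj (t x : ℂ) = 1 := fun x => by
    rw [linear_conj, mul_inv_cancel₀ (t x).ne_zero]
  have a' := irr_mul_linear a t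
  have k := charKer_le_of_inner_ne_zero (char_mul (char_comp (irr_isCharacter hβ) i) (char_linear t)) a'
    (by simpa only [inner_def, Pi.mul_apply, map_mul, mul_mul_mul_comm _ (t _ : ℂ), n1, mul_one]
      using (ov_iff (j := i)).1 b)
  have k' : ∀ x, i x ∈ N → x ∈ charKer fun g => θ g * t g := fun x hx => k fun y => by
    simp only [Pi.mul_apply, map_mul, Units.val_mul]
    rw [← h1 ⟨x, hx⟩ (i y)]
    exact (mul_comm _ _).trans ((mul_right_comm _ _ _).trans rfl)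
  obtain ⟨l, hl⟩ := exists_linear_of_one (irr_isCharacter a') ((irr_one_eq_one_iff a').2
    (commutator_le.2 fun x _ y _ => k' _ (h.comm _ x.1.2 _ y.1.2)))
  have hl' := congrFun hl
  have := h.hom_eq_one i ψ (fun _ _ => rfl) hN (fun u => u.1.2) l
    (fun u hu => by simpa [hl, charKer_linear] using k' u hu)
    fun s u => Units.ext (by rw [← hl', ← hl', c]; exact congrArg (θ u * ·) (congrArg _ (hτ s u)))
  refine W.sc_of_ne hβ fun h0 => ov_iff.1 b ?_
  rw [inner_def, ← mul_zero, ← h0]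
  refine congrArg _ (Finset.sum_congr rfl fun x _ => (mul_comm _ _).trans (congrArg (· * _) ?_))
  rw [eq_inv_of_mul_eq_one_left ((hl' x).trans (by simp [this])), map_inv₀, linear_conj, inv_inv]; rfl

theorem core [Fintype H] (m : G → ℂˣ) (hm : ∀ x ∈ N, ∀ y ∈ N, m (x * y) = m x * m y)
    (hc : ∀ g, ∀ x ∈ N, m (g * x * g⁻¹) = m x) (hs : ∀ s, ∀ x ∈ N, m (φ s x) = m x) :
    Bij (OM H.subtype) (fun β => (∀ n ∈ N, ∀ g, β (n * g) = m n * β g) ∧ InvA (Set.range φ) β)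
      fun γ => (∀ n : H, n.1 ∈ N → ∀ g, γ (n * g) = m n * γ g) ∧
        InvA (Set.range (resAut φ H h.iH)) γ := by
  haveI := h.nA
  haveI := h.nN
  haveI := Fintype.ofFinite A
  haveI := Fintype.ofFinite G
  obtain ⟨e, τ, W, h1, h2⟩ := h.exists_weil m hm hc hs
  refine bij_congr (W.bij φ h.iA h.iH h1 fun β => h.key W h1) (fun β _ => and_congr_left' ?_)
    fun γ _ => and_congr_left' ?_
  · exact ⟨fun k n hn g => by simp [← k ⟨⟨n, h.NA hn⟩, hn⟩ g, h2 ⟨n, _⟩ hn],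
      fun k x g => by
        rw [h2 x x.2]; exact (congrArg _ (k _ x.2 g)).trans (Units.inv_mul_cancel_left _ _)⟩
  · exact ⟨fun k n hn g => by simp [← k ⟨⟨n, h.NA hn⟩, hn⟩ g, h2 ⟨n, _⟩ hn],
      fun k x g => by
        rw [h2 x x.2]; exact (congrArg _ (k ⟨_, h.NH x.2⟩ x.2 g)).trans (Units.inv_mul_cancel_left _ _)⟩

end ISet

end CF.Known
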