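import Cfsg.Agent.Known.Isaacs2

/-!
The Isaacs correspondence for one abelian step.
-/

set_option autoImplicit false

namespace CF.Known

open Cfsg CF.Char CF.Clifford CF.Coprime Subgroup SemidirectProduct

variable {K C S Q : Type*} [Group K] [Group C] [Group S] [Group Q]

theorem bij_lift' {Δ : Type*} [Group Δ] [Finite Δ] (F : NormalEmb Q Δ) (E : NormalEmb Q K)
    (a : Δ →* K) (ha : Function.Surjective a) (hι : ∀ q, a (F.ι q) = E.ι q) {θ : Q → ℂ}
    (hθ : IsIrrCharacter Q θ) {η : Δ → ℂ} (hη : IsCharacter Δ η) (hext : ∀ q, η (F.ι q) = θ q)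
    {m : Δ → ℂˣ} (hc : ∀ z, a z = 1 → z ∈ center Δ) (hz : ∀ z, a z = 1 → ∀ x, m z * η (z * x) = η x)
    (hm : ∀ q z, a z = 1 → m (F.ι q * z) = m z) {ψ : S →* MulAut Δ} {φ : S →* MulAut K}
    {φQ : S →* MulAut Q} (e1 : ∀ s x, a (ψ s x) = φ s (a x)) (e2 : ∀ s q, ψ s (F.ι q) = F.ι (φQ s q))
    (e3 : ∀ s x, η (ψ s x) = η x) :
    Bij (fun χ β => (fun x => χ (a x)) = β * η) (fun χ => Ov E.ι θ χ ∧ InvA (Set.range φ) χ)
      fun β => (∀ n, a n ∈ E.ι.range → ∀ g, β (n * g) = m n * β g) ∧ InvA (Set.range ψ) β := by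
  have := Finite.of_injective _ F.inj
  have := Fintype.ofFinite Q
  have h1 : η 1 ≠ 0 := by rw [← map_one F.ι, hext]; exact irr_one_ne_zero hθ
  have m1 : (m 1 : ℂ) = 1 := (mul_eq_right₀ h1).1 (by simpa using hz 1 (map_one a) 1)
  have k : ∀ β : Δ → ℂ, (∀ n, a n ∈ E.ι.range → ∀ g, β (n * g) = m n * β g) → ∀ q, β (F.ι q) = β 1 :=
    fun β h q => by
      simpa [(mul_one (F.ι q)) ▸ hm q 1 (map_one a), m1] using h _ ⟨q, (hι q).symm⟩ 1
  refine ⟨fun χ b c => ?_, fun χ β γ _ b c _ d e f g => F.eq_of_mul_ext hθ hη hext b c (k β d.1)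
    (k γ e.1) (f.symm.trans g), fun χ χ' β _ _ _ _ _ _ f g => funext fun x => ?_, fun β b c => ?_⟩
  · obtain ⟨β, d, e, f⟩ := F.exists_mul_ext hθ hη hext (irr_comp_of_surjective b a ha)
      (by simpa only [hι] using ov_iff.1 c.1)
    refine ⟨β, d, ⟨fun n ⟨q, hq⟩ g => ?_, invA_range.2 fun s => congrFun (F.eq_of_mul_ext hθ hη hext
      (irr_comp_equiv d (ψ s)) d (by simp [e2, e]) e (funext fun x => ?_))⟩, f.symm⟩
    · obtain ⟨z, rfl⟩ : ∃ z, n = F.ι q * z := ⟨_, (mul_inv_cancel_left _ _).symm⟩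
      have z1 : a z = 1 := by simpa [hι] using hq
      obtain ⟨c, hc⟩ := center_le_charCenter d (hc z z1)
      have : (β * η) (z * 1) = (β * η) 1 := by simp only [f, map_mul, z1, map_one, one_mul]
      rw [Pi.mul_apply, Pi.mul_apply, hc, ← hz z z1 1, ← mul_assoc, mul_left_inj' (right_ne_zero_of_mul
        (hz z z1 1 ▸ h1)), mul_comm, mul_right_inj' (irr_one_ne_zero d)] at this
      rw [mul_assoc, char_mul_of_eq_one (irr_isCharacter d) (e q), hm q z z1, hc, this]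
    · simpa [e1, e3, invA_range.1 c.2 s] using (congrFun f (ψ s x)).trans (by
        simp only [e1, invA_range.1 c.2 s]) |>.trans (congrFun f x).symm
  · obtain ⟨y, rfl⟩ := ha x
    exact congrFun (f.trans g.symm) y
  · obtain ⟨χ, d, e⟩ := exists_irr_of_ker_le (F.irr_mul_ext hθ hη hext b (k β c.1)) a ha
      fun z z1 x => by
        rw [Pi.mul_apply, Pi.mul_apply, c.1 z (z1 ▸ one_mem _), ← hz z z1 x]; ring
    refine ⟨χ, d, ⟨ov_iff.2 ?_, invA_range.2 fun s x => ?_⟩, e.symm⟩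
    · rw [show (fun q => χ (E.ι q)) = β 1 • θ from funext fun q => by
        simpa [hι, hext, k β c.1] using (congrFun e (F.ι q)).symm, Char.inner_smul_left,
        inner_irr_self hθ, mul_one]
      exact irr_one_ne_zero b
    · obtain ⟨y, rfl⟩ := ha x
      simpa [e1, e3, invA_range.1 c.2 s] using (congrFun e (ψ s y)).symm.trans (by
        simp only [Pi.mul_apply, e3, invA_range.1 c.2 s]) |>.trans (congrFun e y)

/-- The setting of the Isaacs correspondence for one abelian step. -/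
structure JSet (E : NormalEmb Q K) (F : NormalEmb Q C) (j : C →* K) (φ : S →* MulAut K)
    (φQ : S →* MulAut Q) (φC : S →* MulAut C) (A : Subgroup K) : Prop where
  I : ISet φ E.ι.range A j.range
  inj : Function.Injective j
  jι : ∀ q, j (F.ι q) = E.ι q
  eQ : ∀ s q, φ s (E.ι q) = E.ι (φQ s q)
  eC : ∀ s c, φ s (j c) = j (φC s c)

namespace JSet

variable {E : NormalEmb Q K} {F : NormalEmb Q C} {j : C →* K} {φ : S →* MulAut K}
  {φQ : S →* MulAut Q} {φC : S →* MulAut C} {A : Subgroup K} (h : JSet E F j φ φQ φC A)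
include h

theorem eF (s : S) (q : Q) : φC s (F.ι q) = F.ι (φQ s q) :=
  h.inj (by rw [← h.eC, h.jι, h.jι, h.eQ])

variable [Finite K] [Finite S] [Fintype C]

theorem bij_inv {θ : Q → ℂ} (hθ : IsIrrCharacter Q θ) (hi : E.Invariant θ)
    (hs : ∀ s q, θ (φQ s q) = θ q) :
    Bij (OM j) (fun χ => Ov E.ι θ χ ∧ InvA (Set.range φ) χ)
      fun ξ => Ov F.ι θ ξ ∧ InvA (Set.range φC) ξ := by
  classical
  have := Finite.of_injective _ E.inj
  have := Fintype.ofFinite Q
  obtain ⟨Γ, _, _, E', σ, η, lam, L⟩ := (sdEmb E φ φQ h.eQ).exists_isLift hθ fun g q =>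
    (hi g.left _).trans (hs g.right q)
  let Δ := (rightHom.comp σ).ker
  have r1 : ∀ x : Δ, (σ x).right = 1 := fun x => x.2
  let π : Δ →* K := MonoidHom.mk' (fun x => (σ x).left) fun x y => by simp [r1]
  have hπ : ∀ x : Δ, σ x = inl (π x) := fun x => SemidirectProduct.ext rfl (r1 x)
  have πs : Function.Surjective π := fun k => by
    obtain ⟨x, hx⟩ := L.surj (inl k)
    exact ⟨⟨x, by simp [Δ, MonoidHom.mem_ker, hx]⟩, congrArg left hx⟩
  have kπ : ∀ z, π z = 1 → z.1 ∈ σ.ker := fun z hz => by rw [MonoidHom.mem_ker, hπ, hz, map_one]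
  obtain ⟨ψ, hψ⟩ : ∃ ψ : S →* MulAut Δ, ∀ s, ∃ y, σ y = inr s ∧ ∀ x, (ψ s x : Γ) = y * x * y⁻¹ := by
    refine ⟨(σ.liftOfSurjective L.surj ⟨MulAut.conjNormal, fun z hz => MulEquiv.ext fun x =>
      Subtype.ext (by simp [← mem_center_iff.1 (L.central hz)])⟩).comp inr, fun s => ?_⟩
    obtain ⟨y, hy⟩ := L.surj (inr s)
    exact ⟨y, hy, fun x => by simp [← hy]⟩
  have mι : ∀ q, E'.ι q ∈ Δ := fun q => by simp [Δ, MonoidHom.mem_ker, L.π_ι, sdEmb]
  let D := E'.restrict Δ mι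
  have πD : ∀ q, π (D.ι q) = E.ι q := fun q => congrArg left (L.π_ι q)
  have e1 : ∀ s x, π (ψ s x) = φ s (π x) := fun s x => inl_injective (φ := φ) <| by
    obtain ⟨y, a, b⟩ := hψ s
    rw [← hπ, b, map_mul, map_mul, map_inv, a, hπ, inr_mul_inl_mul_inv]
  have e2 : ∀ s q, ψ s (D.ι q) = D.ι (φQ s q) := fun s q => Subtype.ext <| by
    obtain ⟨y, a, b⟩ := hψ s
    rw [b]
    refine (E'.ι_c y q).symm.trans (congrArg _ ?_)
    rw [(sdEmb E φ φQ h.eQ).c_eq_of_comp E' σ L.π_ι, a]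
    simp [sdEmb]
  have e3 : ∀ s (x : Δ), η (ψ s x) = η x := fun s x => by
    obtain ⟨y, -, b⟩ := hψ s
    rw [b, irr_isClassFunction L.irr]
  have cz : ∀ z, π z = 1 → ∀ y : Γ, y * z * y⁻¹ = z := fun z hz y => by
    rw [mem_center_iff.1 (L.central (kπ z hz)), mul_inv_cancel_right]
  have hc : ∀ z, π z = 1 → z ∈ center Δ := fun z hz => mem_center_iff.2 fun y =>
    Subtype.ext (mem_center_iff.1 (L.central (kπ z hz)) y)
  obtain ⟨m, hm⟩ : ∃ m : Δ → ℂˣ, ∀ q z (hz : π z = 1), m (D.ι q * z) = (lam ⟨z, kπ z hz⟩)⁻¹ := by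
    refine ⟨fun x => if k : π x ∈ E.ι.range then (lam ⟨_, kπ ((D.ι k.choose)⁻¹ * x)
      (by simp [πD, k.choose_spec])⟩)⁻¹ else 1, fun q z hz => ?_⟩
    have k : π (D.ι q * z) ∈ E.ι.range := ⟨q, by simp [πD, hz]⟩
    have : k.choose = q := E.inj (k.choose_spec.trans (by simp [πD, hz]))
    simp only [dif_pos k, this, inv_mul_cancel_left]
  have hm' : ∀ z (hz : π z = 1), m z = (lam ⟨z, kπ z hz⟩)⁻¹ := fun z hz => by simpa using hm 1 z hz
  have dec : ∀ x ∈ E.ι.range.comap π, ∃ q z, π z = 1 ∧ x = D.ι q * z := fun x ⟨q, hq⟩ =>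
    ⟨q, (D.ι q)⁻¹ * x, by simp [πD, hq], by simp⟩
  have I : ISet ψ (E.ι.range.comap π) (A.comap π) (j.range.comap π) :=
    { nN := inferInstance
      nA := h.I.nA.comap π
      NA := comap_mono h.I.NA
      comm := fun a b c d => by simpa using h.I.comm _ b _ d
      iN := fun s n hn => by simpa only [mem_comap, e1] using h.I.iN s _ hn
      cA := fun s x => by simpa [e1] using h.I.cA s (π x)
      fix := fun x => by simpa [e1] using h.I.fix (π x)
      HA := fun x => h.I.HA (π x)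
      odd := by rw [index_comap_of_surjective _ πs]; exact h.I.odd
      cop := by rw [index_comap_of_surjective _ πs]; exact h.I.cop
      solv := by
        have := h.I.solv
        have := Group.isSolvable_of_comm (G := π.ker) fun a b =>
          Subtype.ext (mem_center_iff.1 (hc b b.2) a)
        exact Group.isSolvable_of_ker_le_range π.ker.subtype π (by simp) }
  have := Fintype.ofFinite (j.range.comap π)
  have b0 := I.core m (fun x hx y hy => by
    obtain ⟨q, z, a, rfl⟩ := dec x hx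
    obtain ⟨q', z', a', rfl⟩ := dec y hy
    rw [mul_assoc, ← mul_assoc z, ← mem_center_iff.1 (hc z a), mul_assoc, ← mul_assoc, ← map_mul,
      hm _ _ a, hm _ _ a', hm _ _ (by simp [a, a']), ← mul_inv, ← map_mul lam]; rfl) (fun g x hx => by
    obtain ⟨q, z, a, rfl⟩ := dec x hx
    rw [← mul_assoc, mul_assoc, ← mem_center_iff.1 (hc z a), ← mul_assoc, ← D.ι_c, hm _ _ a, hm _ _ a])
    fun s x hx => by
      obtain ⟨q, z, a, rfl⟩ := dec x hx
      obtain ⟨y, -, b⟩ := hψ s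
      rw [map_mul, e2, show ψ s z = z from Subtype.ext ((b z).trans (cz z a y)), hm _ _ a, hm _ _ a]
  have cη := char_restrict (irr_isCharacter L.irr) Δ
  have hz : ∀ z, π z = 1 → ∀ x : Δ, m z * η (z * x : Δ) = η x := fun z a x => by
    rw [hm' z a, coe_mul, L.scalar ⟨z, kπ z a⟩, Units.inv_mul_cancel_left]
  let a := (MonoidHom.ofInjective h.inj).symm.toMonoidHom.comp (π.subgroupComap j.range)
  have ja : ∀ x, j (a x) = π x := fun x => MonoidHom.apply_ofInjective_symm h.inj _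
  have as : Function.Surjective a := (MonoidHom.ofInjective h.inj).symm.surjective.comp
    (π.subgroupComap_surjective_of_surjective _ πs)
  have a1 : ∀ z, a z = 1 → π z = 1 := fun z hz => by rw [← ja, hz, map_one]
  let D' := D.restrict (j.range.comap π) fun q => ⟨F.ι q, (h.jι q).trans (πD q).symm⟩
  have aD : ∀ q, a (D'.ι q) = F.ι q := fun q => h.inj ((ja _).trans ((πD q).trans (h.jι q).symm))
  have cη' := char_restrict cη (j.range.comap π)
  have k : ∀ x, a x ∈ F.ι.range ↔ π x ∈ E.ι.range := fun x =>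
    ⟨fun ⟨q, hq⟩ => ⟨q, by rw [← h.jι, hq, ja]⟩, fun ⟨q, hq⟩ => ⟨q, h.inj (by rw [h.jι, hq, ja])⟩⟩
  refine bij_transport b0 (bij_lift' D E π πs πD hθ cη L.ext hc hz
    (fun q z a => (hm q z a).trans (hm' z a).symm) e1 e2 e3)
    (bij_congr (bij_lift' D' F a as aD hθ cη' L.ext (m := fun x => m x)
      (fun z hz => mem_center_iff.2 fun y => Subtype.ext (mem_center_iff.1 (hc z (a1 z hz)) y))
      (fun z b x => hz z (a1 z b) x) (fun q z b => (hm q z (a1 z b)).trans (hm' z (a1 z b)).symm)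
      (ψ := resAut ψ _ I.iH) (φ := φC) (φQ := φQ) (fun s x => h.inj (by rw [ja, ← h.eC, ja, ← e1]; rfl))
      (fun s q => Subtype.ext (e2 s q)) fun s x => e3 s x) (fun _ _ => Iff.rfl)
      fun _ _ => by simp only [k, mem_comap]) fun χ ξ β γ _ _ b c _ _ d e f g => ?_
  have m1 : ∀ q, m (D.ι q) = 1 := fun q =>
    (mul_one (D.ι q) ▸ hm q 1 (map_one π)).trans (inv_eq_one.2 (map_one lam))
  have := D'.inner_mul_ext hθ cη' L.ext (char_restrict (irr_isCharacter b) _) (irr_isCharacter c)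
    (fun q => show β (D.ι q) = β 1 by simpa [m1] using d.1 (D.ι q) ⟨q, (πD q).symm⟩ 1) fun q => by
      simpa [show m (D'.ι q) = 1 from m1 q] using e.1 (D'.ι q) ⟨q, (πD q).symm⟩ 1
  rw [← g] at this
  simp only [OM, ← inner_comp_surjective a as, ja, congrFun f, coe_subtype, ← this]
  rfl

theorem bij_over {θ : Q → ℂ} (hθ : IsIrrCharacter Q θ) (hs : ∀ s q, θ (φQ s q) = θ q) :
    Bij (OM j) (fun χ => Ov E.ι θ χ ∧ InvA (Set.range φ) χ)
      fun ξ => Ov F.ι θ ξ ∧ InvA (Set.range φC) ξ := by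
  have := Fintype.ofFinite K
  have cθ := irr_isClassFunction hθ
  have hT := inertia_aut E h.eQ hs
  have hD := inertia_aut F h.eF hs
  have hc := E.inertia_comap F j h.jι θ
  let E' := E.restrict _ (E.ι_mem_inertia cθ)
  let F' := F.restrict _ (F.ι_mem_inertia cθ)
  let j' : F.inertia θ →* E.inertia θ :=
    (j.comp (Subgroup.subtype _)).codRestrict _ fun x => (hc.le x.2 :)
  have := Fintype.ofFinite (E.inertia θ)
  have := Fintype.ofFinite (F.inertia θ)
  have mE : ∀ x : E.inertia θ, x ∈ E'.ι.range ↔ (x : K) ∈ E.ι.range := fun x =>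
    ⟨fun ⟨q, hq⟩ => ⟨q, congrArg Subtype.val hq⟩, fun ⟨q, hq⟩ => ⟨q, Subtype.ext hq⟩⟩
  have mj : ∀ x : E.inertia θ, x ∈ j'.range ↔ (x : K) ∈ j.range := fun k =>
    ⟨fun ⟨c, hc⟩ => ⟨c, congrArg Subtype.val hc⟩, fun ⟨c, e⟩ =>
      ⟨⟨c, hc.ge (show j c ∈ E.inertia θ from e ▸ k.2)⟩, Subtype.ext e⟩⟩
  have d : E'.ι.range.index ∣ E.ι.range.index :=
    (E.index_restrict _ _).dvd.trans (relIndex_dvd_index_of_normal _ _)
  have h' : JSet E' F' j' (resAut φ _ hT) φQ (resAut φC _ hD) (A.subgroupOf _) :=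
    { I :=
        { nN := inferInstance
          nA := h.I.nA.subgroupOf _
          NA := fun x hx => h.I.NA ((mE x).1 hx)
          comm := fun a b c d => (mE _).2 (h.I.comm _ b _ d)
          iN := fun s n hn => (mE _).2 (h.I.iN s _ ((mE _).1 hn))
          cA := fun s x => h.I.cA s x
          fix := fun x => by simp only [mE, mj]; exact h.I.fix x
          HA := fun x a b => (mE _).2 (h.I.HA _ ((mj _).1 a) b)
          odd := h.I.odd.of_dvd_nat d
          cop := h.I.cop.coprime_dvd_left d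
          solv := by have := h.I.solv; infer_instance }
      inj := fun a b e => Subtype.ext (h.inj (congrArg Subtype.val e))
      jι := fun q => Subtype.ext (h.jι q)
      eQ := fun s q => Subtype.ext (h.eQ s q)
      eC := fun s c => Subtype.ext (h.eC s c) }
  refine bij_transport (h'.bij_inv hθ (E.invariant_restrict_inertia _) hs)
    (bij_clifford_inv E h.eQ hθ hs) (bij_clifford_inv F h.eF hθ hs) ?_
  rintro _ _ ψ η - - hψ hη - - oψ oη rfl rfl
  simp only [OM, inner_clifford E E' _ (subtype_injective _) (fun _ => rfl) hθ (by simp) j j' _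
    (fun _ => rfl) F'.ι h'.jι hψ oψ.1 hη oη.1]

theorem bij : Bij (OM j) (InvA (Set.range φ)) (InvA (Set.range φC)) := by
  have := Finite.of_injective _ E.inj
  have := h.I.solv
  have := Group.isSolvable_of_isSolvable_injective h.inj
  have ov : ∀ {χ ξ}, OM j χ ξ → Ov j ξ χ := fun ⟨k, a, b⟩ => ov_iff.2 (a ▸ Nat.cast_ne_zero.2 b.pos.ne')
  have uK := fun χ => exists_inv_under' E φ φQ h.eQ h.I.cop (χ := χ)
  have uC := fun χ => exists_inv_under' F φC φQ h.eF (h.I.cop.coprime_dvd_left (by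
    rw [NormalEmb.index, show F.ι.range = E.ι.range.comap j from ext fun c =>
      ⟨fun ⟨q, hq⟩ => ⟨q, by rw [← hq, h.jι]⟩, fun ⟨q, hq⟩ => ⟨q, h.inj (by rw [h.jι, hq])⟩⟩]
    exact index_comap_dvd j _)) (χ := χ)
  have up : ∀ χ ξ θ, IsIrrCharacter K χ → IsIrrCharacter C ξ → IsIrrCharacter Q θ →
      Ov j ξ χ → Ov F.ι θ ξ → Ov E.ι θ χ := fun χ ξ θ a b c d e =>
    (ov_congr fun q => by simp [h.jι]).1 (d.trans e (irr_isCharacter a) b (irr_isCharacter c))
  have down : ∀ χ ξ θ, IsIrrCharacter K χ → IsIrrCharacter C ξ → IsIrrCharacter Q θ →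
      InvA (Set.range φC) ξ → (∀ s q, θ (φQ s q) = θ q) → Ov j ξ χ → Ov E.ι θ χ → Ov F.ι θ ξ :=
    fun χ ξ θ a b c d e f g => by
      obtain ⟨τ, t1, t2, t3⟩ := uC ξ b d
      obtain ⟨k, rfl⟩ := g.exists_cj (up χ ξ τ a b t1 f t2) a c t1
      obtain ⟨u, hu, x, hx⟩ := h.I.rel (E.range_le_inertia (irr_isClassFunction c))
        (inertia_aut E h.eQ e) (x := k⁻¹) fun s => by
          rw [inv_inv, map_inv, ← E.cj_eq_cj_iff]
          funext q
          obtain ⟨q, rfl⟩ := (φQ s).surjective q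
          rw [t3, E.cj_apply, E.cj_apply, cj_aut E _ _ (h.eQ s), e]
      refine (ov_cj F (irr_isClassFunction b) x⁻¹).1 ((?_ : _ = F.cj θ x⁻¹) ▸ t2)
      refine Eq.trans (E.cj_eq_cj_iff (h := j x⁻¹).2 (by simpa [hx])) (funext fun q => ?_)
      rw [F.cj_apply, E.cj_apply, E.c_eq_of_comp F j h.jι]
  refine ⟨fun χ a b => ?_, fun χ β γ a b c d e f g i => ?_, fun χ ψ β a b c d e f g i => ?_,
    fun β a b => ?_⟩
  · obtain ⟨θ, t1, t2, t3⟩ := uK χ a b
    obtain ⟨β, c, d, e⟩ := (h.bij_over t1 t3).ex χ a ⟨t2, b⟩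
    exact ⟨β, c, d.2, e⟩
  · obtain ⟨θ, t1, t2, t3⟩ := uK χ a d
    exact (h.bij_over t1 t3).uniq χ β γ a b c ⟨t2, d⟩ ⟨down χ β θ a b t1 e t3 (ov g) t2, e⟩
      ⟨down χ γ θ a c t1 f t3 (ov i) t2, f⟩ g i
  · obtain ⟨θ, t1, t2, t3⟩ := uC β c f
    exact (h.bij_over t1 t3).inj χ ψ β a b c ⟨up χ β θ a c t1 (ov g) t2, d⟩
      ⟨up ψ β θ b c t1 (ov i) t2, e⟩ ⟨t2, f⟩ g i
  · obtain ⟨θ, t1, t2, t3⟩ := uC β a b
    obtain ⟨χ, c, d, e⟩ := (h.bij_over t1 t3).surj β a ⟨t2, b⟩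
    exact ⟨χ, c, d.2, e⟩

end JSet

end CF.Known
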