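import Mathlib

/-!
A group of order `2p³` acting on Kronecker modules with scalar centralizer.
-/

set_option autoImplicit false

namespace CF.Known

open Matrix Subgroup
open scoped MatrixGroups

theorem exists_psl_of_brick {ι F H : Type*} [Fintype ι] [DecidableEq ι] [Field F] [Group H]
    (ψ : H →* Matrix ι ι F) (hdet : ∀ h, (ψ h).det = 1) (hinj : ∀ h (r : F), ψ h = r • 1 → h = 1)
    (hc : ∀ g : Matrix ι ι F, IsUnit g → (∀ h, ∃ r : F, g * ψ h = r • (ψ h * g)) →
      ∃ c : F, g = c • 1) {n : ℕ} (e : ι ≃ Fin n) :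
    ∃ φ : H →* PSL(n, F), Function.Injective φ ∧ centralizer (φ.range : Set PSL(n, F)) = ⊥ := by
  let R := reindexAlgEquiv F F e
  let φ : H →* SL(n, F) := ⟨⟨fun h => ⟨R (ψ h), (det_reindexAlgEquiv F F e _).trans (hdet h)⟩,
    Subtype.ext (by simp)⟩, fun _ _ => Subtype.ext (by
      rw [Matrix.SpecialLinearGroup.coe_mul]; simp)⟩
  have k : ∀ g : SL(n, F), g ∈ center SL(n, F) ↔ ∃ r : F, R.symm g.1 = r • 1 := fun g =>
    ⟨fun h => by
      obtain ⟨r, -, hr⟩ := Matrix.SpecialLinearGroup.mem_center_iff.1 h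
      exact ⟨r, by rw [← hr, scalar_apply, ← smul_one_eq_diagonal, map_smul, map_one]⟩, fun ⟨r, hr⟩ =>
      mem_center_iff.2 fun x => Subtype.ext (by
        have : g.1 = r • 1 := by rw [← R.apply_symm_apply g.1, hr, map_smul, map_one]
        simp [this])⟩
  refine ⟨(QuotientGroup.mk' _).comp φ, (injective_iff_map_eq_one _).2 fun h hh => ?_,
    eq_bot_iff.2 fun g hg => ?_⟩
  · obtain ⟨r, hr⟩ := (k _).1 ((QuotientGroup.eq_one_iff _).1 hh)
    exact hinj h r ((R.symm_apply_apply _).symm.trans hr)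
  obtain ⟨g, rfl⟩ := QuotientGroup.mk_surjective g
  refine (QuotientGroup.eq_one_iff _).2 ((k _).2 (hc _ (g.toGL.isUnit.map R.symm) fun h => ?_))
  obtain ⟨r, hr⟩ := (k _).1 (QuotientGroup.eq.1 (hg _ ⟨h, rfl⟩ : ((φ h * g : SL(n, F)) :
    PSL(n, F)) = (g * φ h : SL(n, F))))
  refine ⟨r, ?_⟩
  have := congrArg (fun x : SL(n, F) => R.symm x.1) (mul_inv_cancel_left (φ h * g) (g * φ h))
  rw [Matrix.SpecialLinearGroup.coe_mul, map_mul, hr, Matrix.SpecialLinearGroup.coe_mul,
    Matrix.SpecialLinearGroup.coe_mul] at this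
  simpa [show (φ h).1 = R (ψ h) from rfl] using this.symm

theorem eq_smul_of_toeplitz {F : Type*} [Semiring F] {m : ℕ} {Q : Matrix (Fin (m + 1)) (Fin (m + 1)) F}
    (h1 : ∀ i j : Fin m, Q i.succ j.succ = Q i.castSucc j.castSucc)
    (h2 : ∀ j : Fin m, Q 0 j.succ = 0) (h3 : ∀ j : Fin m, Q (.last m) j.castSucc = 0) :
    Q = Q 0 0 • 1 := by
  have k : ∀ d a b (ha : a + d < m + 1) (hb : b + d < m + 1),
      Q ⟨a + d, ha⟩ ⟨b + d, hb⟩ = Q ⟨a, by omega⟩ ⟨b, by omega⟩ := fun d a b => by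
    induction d with
    | zero => exact fun _ _ => rfl
    | succ d ih => exact fun ha hb => (h1 ⟨a + d, by omega⟩ ⟨b + d, by omega⟩).trans (ih _ _)
  ext ⟨i, hi⟩ ⟨j, hj⟩
  rcases lt_trichotomy i j with h | rfl | h
  · obtain ⟨c, rfl⟩ := Nat.exists_eq_add_of_lt h
    have := k i 0 (c + 1) (by omega) (by omega)
    simp only [zero_add, show c + 1 + i = i + c + 1 by omega] at this
    rw [this, Matrix.smul_apply, one_apply_ne (Fin.ne_of_val_ne h.ne), smul_zero]
    exact h2 ⟨c, by omega⟩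
  · simpa using k i 0 0 (by omega) (by omega)
  · have := k (m - i) i j (by omega) (by omega)
    simp only [show i + (m - i) = m by omega] at this
    rw [← this, Matrix.smul_apply, one_apply_ne (Fin.ne_of_val_ne h.ne'), smul_zero]
    exact h3 ⟨j + (m - i), by omega⟩

/-- The generalized dihedral group of an abelian group. -/
@[ext] structure GenDih (M : Type) where
  /-- translation part -/
  v : M
  /-- sign -/
  e : ℤˣ

instance instGroupGenDih (M : Type) [AddCommGroup M] : Group (GenDih M) :=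
  letI : Mul (GenDih M) := ⟨fun x y => ⟨x.v + x.e • y.v, x.e * y.e⟩⟩
  letI : One (GenDih M) := ⟨⟨0, 1⟩⟩
  letI : Inv (GenDih M) := ⟨fun x => ⟨-(x.e⁻¹ • x.v), x.e⁻¹⟩⟩
  Group.ofLeftAxioms (fun _ _ _ => GenDih.ext (by
      change _ + _ + _ • _ = _ + _ • (_ + _ • _)
      rw [smul_add, add_assoc, ← mul_smul]; rfl) (mul_assoc _ _ _))
    (fun _ => GenDih.ext ((zero_add _).trans (one_smul _ _)) (one_mul _))
    fun _ => GenDih.ext (neg_add_cancel _) (inv_mul_cancel _)

theorem card_genDih (M : Type) : Nat.card (GenDih M) = Nat.card M * 2 := by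
  rw [Nat.card_congr (⟨fun x => (x.v, x.e), fun x => ⟨x.1, x.2⟩, fun _ => rfl, fun _ => rfl⟩ :
    GenDih M ≃ M × ℤˣ), Nat.card_prod, Nat.card_eq_fintype_card (α := ℤˣ), Fintype.card_units_int]

variable {F : Type} [Field F]

/-- Three independent maps `F^(m+1) → F^(m+2)`. -/
def kron (m : ℕ) (v : Fin 3 → F) : Matrix (Fin (m + 2)) (Fin (m + 1)) F :=
  v 0 • (1 : Matrix _ _ F).submatrix id Fin.castSucc + v 1 • (1 : Matrix _ _ F).submatrix id Fin.succ +
    v 2 • single (.last _) 0 1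

/-- The representation on a Kronecker module. -/
def kronRep (m : ℕ) :
    GenDih (Fin 3 → F) →* Matrix (Fin (m + 1) ⊕ Fin (m + 2)) (Fin (m + 1) ⊕ Fin (m + 2)) F where
  toFun x := fromBlocks 1 0 (kron m x.v) (x.e • 1)
  map_one' := by
    rw [← fromBlocks_one]
    congr 1
    · simp [kron, show (1 : GenDih (Fin 3 → F)).v = 0 from rfl]
    · exact one_smul _ _
  map_mul' x y := by
    rw [fromBlocks_multiply]
    congr 1
    · simp
    · simp
    · simp only [kron, show (x * y).v = x.v + x.e • y.v from rfl, Matrix.mul_one, Matrix.smul_mul,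
        Matrix.one_mul, Pi.add_apply, Pi.smul_apply, add_smul, smul_add, smul_assoc]
      abel
    · simp [show (x * y).e = x.e * y.e from rfl, smul_smul, mul_comm]

theorem exists_psl_genDih {p : ℕ} [Fact p.Prime] (hp : p ≠ 2) (k : ℕ) :
    ∃ φ : GenDih (Fin 3 → ZMod p) →* PSL(2 * k + 2 + 1 + (2 * k + 2 + 2), ZMod p),
      Function.Injective φ ∧ centralizer (SetLike.coe φ.range) = ⊥ := by
  have h2 : (2 : ZMod p) ≠ 0 := fun h => hp ((Nat.prime_dvd_prime_iff_eq Fact.out Nat.prime_two).1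
    ((ZMod.natCast_eq_zero_iff 2 p).1 h))
  refine exists_psl_of_brick (kronRep (2 * k + 2)) (fun h => ?_) (fun h r hr => ?_)
    (fun g hg hc => ?_) finSumFinEquiv
  · change det (fromBlocks _ _ _ _) = 1
    rcases Int.units_eq_one_or h.e with e | e <;>
      simp [e, det_neg, Even.neg_one_pow (⟨k + 2, by omega⟩ : Even (2 * k + 2 + 2))]
  · have k1 := congrFun (congrFun hr (.inl 0)) (.inl 0)
    have k2 := congrFun (congrFun hr (.inr 0)) (.inr 0)
    have k3 := fun i => congrFun (congrFun hr (.inr i)) (.inl 0)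
    have k4 := k3 0
    have k5 := k3 1
    have k6 := k3 (.last _)
    simp [kronRep, kron, one_apply, single_apply, Fin.ext_iff] at k1 k2 k4 k5 k6
    refine GenDih.ext (funext fun i => by fin_cases i <;> assumption) ?_
    refine (Int.units_eq_one_or h.e).resolve_right fun e => h2 ?_
    rw [e, ← k1, Units.neg_smul, one_smul] at k2
    linear_combination -k2
  have k1 : ∀ v, g * kronRep _ ⟨v, 1⟩ = kronRep _ ⟨v, 1⟩ * g := fun v => by
    obtain ⟨r, hr⟩ := hc ⟨v, 1⟩
    have e1 : kronRep (2 * k + 2) (⟨v, 1⟩ : GenDih (Fin 3 → ZMod p)) ^ p = 1 := by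
      have : ∀ n : ℕ, (⟨v, 1⟩ : GenDih (Fin 3 → ZMod p)) ^ n = ⟨n • v, 1⟩ := fun n => by
        induction n with
        | zero => exact GenDih.ext (zero_smul _ _).symm rfl
        | succ n ih => rw [pow_succ, ih, succ_nsmul]; exact GenDih.ext (by
            change _ + _ • _ = _; rw [one_smul]) rfl
      rw [← map_pow, this, ← Nat.cast_smul_eq_nsmul (ZMod p), ZMod.natCast_self, zero_smul]
      exact map_one _
    have e2 : SemiconjBy g (kronRep _ ⟨v, 1⟩) (r • kronRep _ ⟨v, 1⟩) := hr.trans (smul_mul_assoc ..).symm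
    have e3 := (e2.pow_right p).eq
    rw [smul_pow, e1, ZMod.pow_card, smul_mul_assoc, one_mul, ← mul_one g, ← mul_smul_comm,
      mul_assoc, hg.mul_right_inj] at e3
    have e4 := congrFun (congrFun e3 (.inl 0)) (.inl 0)
    simp only [one_apply_eq, Matrix.smul_apply, smul_eq_mul, mul_one] at e4
    rw [hr, ← e4, one_smul]
  have k2 : g * kronRep _ ⟨0, -1⟩ = kronRep _ ⟨0, -1⟩ * g := by
    obtain ⟨r, hr⟩ := hc ⟨0, -1⟩
    obtain ⟨g, rfl⟩ := hg
    have e1 := congrArg (fun x => trace (x * g⁻¹.1)) hr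
    simp only [smul_mul_assoc, trace_smul, Units.mul_inv_cancel_right, trace_units_conj] at e1
    simp [kronRep, trace] at e1
    rw [hr, show r = 1 by linear_combination e1, one_smul]
  have k3 := k1 ![1, 0, 0]
  have k4 := k1 ![0, 1, 0]
  rw [← fromBlocks_toBlocks g] at k2 k3 k4 ⊢
  generalize g.toBlocks₁₁ = P at *
  generalize g.toBlocks₁₂ = B at *
  generalize g.toBlocks₂₁ = C at *
  generalize g.toBlocks₂₂ = Q at *
  simp only [kronRep, kron, MonoidHom.coe_mk, OneHom.coe_mk, fromBlocks_multiply, fromBlocks_inj] at k2 k3 k4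
  simp at k2 k3 k4
  have z : ∀ {a b : ℕ} {X : Matrix (Fin a) (Fin b) (ZMod p)}, X = -X → X = 0 := fun h =>
    (smul_eq_zero.1 (by rw [two_smul]; exact add_eq_zero_iff_eq_neg.2 h)).resolve_left h2
  obtain rfl := z k2.1.symm
  obtain rfl := z k2.2
  simp only [zero_add, add_zero] at k3 k4
  have a1 := fun i j => congrFun (congrFun k3.2.1 i) j
  have a2 := fun i j => congrFun (congrFun k4.2.1 i) j
  simp [mul_apply, one_apply] at a1 a2
  have a3 := eq_smul_of_toeplitz (Q := Q) (fun i j => by simp [a1, a2]) (fun j => by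
    simp [a2, (Fin.succ_ne_zero _).symm]) fun j => by simp [a1, (Fin.castSucc_ne_last _).symm]
  refine ⟨Q 0 0, ?_⟩
  rw [← fromBlocks_one, fromBlocks_smul, ← a3, smul_zero, smul_zero]
  congr 1
  ext i j
  have := a1 i.castSucc j
  rw [a3] at this
  simpa [one_apply] using this.symm

end CF.Known
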