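import Cfsg.Agent.Invol.Wreath

/-!
Automorphisms of a monomial `2`-subgroup of `GL₂(q)`.
-/

set_option autoImplicit false

namespace CF.Known

open Subgroup CF.Invol

variable {G : Type*} [Group G] {T : Subgroup G} {Φ : G → G}

theorem oddAut_fix (h : OddAut T Φ) {C : Subgroup G} (hC : C ≤ T) (h1 : ∀ c ∈ C, Φ c = c) {s : G}
    (h2 : ∀ v ∈ T, v ∈ C ∨ s * v ∈ C) : ∀ v ∈ T, Φ v = v := fun v hv => by
  by_cases h3 : v ∈ C
  · exact h1 v h3
  have h4 : Φ v ∉ C := fun k => h3 (h.inj _ (h.mem v hv) v hv (h1 _ k) ▸ k)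
  have h5 : v⁻¹ * Φ v ∈ C := by
    simpa using mul_mem (inv_mem ((h2 v hv).resolve_left h3)) ((h2 _ (h.mem v hv)).resolve_left h4)
  exact (inv_mul_eq_one.1 (h.stab v hv _ (hC h5) (h1 _ h5) (by simp))).symm

theorem oddAut_pow (h : OddAut T Φ) {x : G} (hx : x ∈ T) (n : ℕ) : Φ (x ^ n) = Φ x ^ n := by
  induction n with
  | zero => simpa using h.mul 1 T.one_mem 1 T.one_mem
  | succ n ih => rw [pow_succ, h.mul _ (pow_mem hx n) _ hx, ih, pow_succ]

theorem isPGroup_mulAut_monomial [Finite G] {F : Type*} [Field F] [Finite F] {m : ℕ}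
    (hF : Nat.card Fˣ = 2 ^ m) (hm : m ≠ 2) {d : Fˣ × Fˣ →* G} (hd : Function.Injective d) {σ : G}
    (h1 : σ * σ = 1) (h2 : ∀ a b, σ * d (a, b) = d (b, a) * σ)
    (hT : ∀ f, f ∈ T ↔ ∃ a b, (a * b) ^ 2 = 1 ∧ (f = d (a, b) ∨ f = σ * d (a, b))) :
    IsPGroup 2 (MulAut T) := by
  have hU : ∀ a : Fˣ, a ^ 2 ^ m = 1 := fun a => hF ▸ pow_card_eq_one'
  have k1 : ∀ a b, (σ * d (a, b)) ^ 2 = d (a * b, a * b) := fun a b => by
    rw [pow_two]
    nth_rw 1 [h2]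
    rw [mul_assoc, ← mul_assoc σ, h1, one_mul, ← map_mul, Prod.mk_mul_mk, mul_comm b]
  have k2 : ∀ a b, (a * b) ^ 2 = 1 → (σ * d (a, b)) ^ 4 = 1 := fun a b h => by
    rw [show 4 = 2 * 2 from rfl, pow_mul, k1, ← map_pow, Prod.pow_mk, h]; exact map_one d
  have sq : ∀ a : Fˣ, a ^ 2 = 1 → a = 1 ∨ a = -1 := fun a h => by
    simpa only [Units.ext_iff, Units.val_pow_eq_pow_val, Units.val_one, sq_eq_one_iff, Units.val_neg]
      using h
  have hP : IsPGroup 2 T := fun ⟨f, hf⟩ => ⟨m + 2, Subtype.ext (by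
    obtain ⟨a, b, h, rfl | rfl⟩ := (hT f).1 hf
    · rw [coe_pow, pow_add, pow_mul, ← map_pow, Prod.pow_mk, hU, hU]; simp [Prod.mk_one_one]
    · rw [coe_pow, pow_add, pow_mul', show 2 ^ 2 = 4 from rfl, k2 a b h, one_pow, coe_one])⟩
  by_contra hA
  obtain ⟨Φ, h, x, hx, hx'⟩ := exists_oddAut hP hA
  have md : ∀ a b, (a * b) ^ 2 = 1 → d (a, b) ∈ T := fun a b k => (hT _).2 ⟨a, b, k, .inl rfl⟩
  have h0 : Φ 1 = 1 := by simpa using oddAut_pow h T.one_mem 0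
  have zp : ∀ y ∈ T, Φ y = y → ∀ c ∈ zpowers y, Φ c = c := fun y hy k c hc => by
    obtain ⟨n, rfl⟩ := mem_powers_iff_mem_zpowers.2 hc
    exact (oddAut_pow h hy n).trans (by rw [k])
  rcases lt_or_gt_of_ne hm with hm | hm
  · have e0 : ∀ a : Fˣ, a ^ 2 = 1 := fun a => orderOf_dvd_iff_pow_eq_one.1
      ((orderOf_dvd_iff_pow_eq_one.2 (hU a)).trans (pow_dvd_pow 2 (Nat.le_of_lt_succ hm)))
    have e := fun a => sq a (e0 a)
    have hy : σ * d (1, -1) ∈ T := (hT _).2 ⟨1, -1, by simp, .inr rfl⟩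
    have e1 : ∀ a, d (a, a) ∈ zpowers (σ * d (1, -1)) := fun a => by
      rcases e a with rfl | rfl
      exacts [(map_one d).symm ▸ one_mem _, ⟨2, by simpa using k1 1 (-1)⟩]
    have e2 : ∀ a, σ * d (a, -a) ∈ zpowers (σ * d (1, -1)) := fun a => by
      simpa [mul_assoc, ← map_mul] using mul_mem (mem_zpowers _) (e1 a)
    have e3 : ∀ a b : Fˣ, b = a ∨ b = -a := fun a b => by
      rcases e a with rfl | rfl <;> rcases e b with rfl | rfl <;> simp
    refine hx' (oddAut_fix h (zpowers_le.2 hy) (zp _ hy (h.cyc _ hy ?_)) (s := σ) (fun v hv => ?_) x hx)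
    · have e4 : Φ (σ * d (1, -1)) ^ 2 = 1 → ∀ a : Fˣ, -a = a := fun k a => by
        have := h.inj _ (pow_mem hy 2) 1 T.one_mem ((oddAut_pow h hy 2).trans (k.trans h0.symm))
        rw [k1, ← map_one d, hd.eq_iff, one_mul] at this
        rw [← neg_one_mul, show (-1 : Fˣ) = 1 from congrArg Prod.fst this, one_mul]
      obtain ⟨a, b, -, k | k⟩ := (hT _).1 (h.mem _ hy) <;> rcases e3 a b with rfl | rfl <;>
        rw [k] at e4 ⊢
      · exact e1 _
      · rw [e4 (by rw [← map_pow, Prod.pow_mk, e0, e0]; exact map_one d) a]; exact e1 _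
      · nth_rw 2 [← e4 (by rw [k1, ← pow_two, e0]; exact map_one d) b]; exact e2 _
      · exact e2 _
    · obtain ⟨a, b, -, rfl | rfl⟩ := (hT _).1 hv <;> rcases e3 a b with rfl | rfl
      exacts [.inl (e1 _), .inr (e2 _), .inr (by simpa [← mul_assoc, h1] using e1 b), .inl (e2 _)]
  obtain ⟨g, hg⟩ := IsCyclic.exists_generator (α := Fˣ)
  have g1 : orderOf g = 2 ^ m := (orderOf_eq_card_of_forall_mem_zpowers hg).trans hF
  have g2 : g ^ 4 ≠ 1 := fun k => absurd (Nat.le_of_dvd (by decide) (g1 ▸ orderOf_dvd_of_pow_eq_one k))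
    (not_le.2 (Nat.pow_lt_pow_right one_lt_two hm))
  have g3 : (-1 : Fˣ) ≠ 1 := fun k => g2 (by
    obtain ⟨n, rfl⟩ := Nat.exists_eq_add_of_lt hm
    have := sq (g ^ 2 ^ (2 + n)) (by rw [← pow_mul, ← pow_succ, hU])
    rw [k, or_self, ← orderOf_dvd_iff_pow_eq_one, g1] at this
    exact absurd (Nat.le_of_dvd (by positivity) this) (by simp [pow_succ]))
  let C : Subgroup G := (((MonoidHom.fst _ _ * MonoidHom.snd _ _) ^ 2 : Fˣ × Fˣ →* Fˣ).ker).map d
  have hx0 := md g g⁻¹ (by simp)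
  obtain ⟨a, b, ab, k⟩ : ∃ a b, (a * b) ^ 2 = 1 ∧ Φ (d (g, g⁻¹)) = d (a, b) := by
    obtain ⟨a, b, ab, k | k⟩ := (hT _).1 (h.mem _ hx0)
    · exact ⟨a, b, ab, k⟩
    have := h.inj _ (pow_mem hx0 4) 1 T.one_mem (by rw [oddAut_pow h hx0, k, k2 a b ab, h0])
    rw [← map_pow, ← map_one d, hd.eq_iff] at this
    exact absurd (congrArg Prod.fst this) g2
  have a1 : Φ (d (g, g⁻¹) ^ 2) = d (g, g⁻¹) ^ 2 := h.cyc _ (pow_mem hx0 2) (by
    obtain ⟨n, rfl⟩ := hg a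
    refine ⟨n, ?_⟩
    rw [mul_pow, mul_eq_one_iff_inv_eq] at ab
    rw [oddAut_pow h hx0, k]
    simp only [← map_pow, ← map_zpow, Prod.pow_mk, ← ab]
    simp [← zpow_natCast, ← zpow_mul, mul_comm, ← zpow_ofNat])
  have a2 : Φ (d (-1, -1)) = d (-1, -1) := zp _ (pow_mem hx0 2) a1 _ (by
    obtain ⟨n, rfl⟩ := Nat.exists_eq_add_of_lt hm
    have := (sq (g ^ 2 ^ (2 + n)) (by rw [← pow_mul, ← pow_succ, hU])).resolve_left fun k => by
      rw [← orderOf_dvd_iff_pow_eq_one, g1] at k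
      exact absurd (Nat.le_of_dvd (by positivity) k) (by simp [pow_succ])
    refine mem_powers_iff_mem_zpowers.1 ⟨2 ^ (1 + n), ?_⟩
    simp only [← pow_mul, ← map_pow, Prod.pow_mk, inv_pow, ← pow_succ',
      show 1 + n + 1 = 2 + n by omega, this, inv_neg, inv_one])
  rw [oddAut_pow h hx0, k, ← map_pow, ← map_pow, hd.eq_iff, Prod.pow_mk, Prod.pow_mk,
    Prod.mk.injEq] at a1
  have he := md 1 (-1) (by simp)
  have a3 : Φ (d (1, -1)) = d (1, -1) := by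
    have e1 : Φ (d (1, -1)) ^ 2 = 1 := by
      rw [← oddAut_pow h he, ← map_pow, ← h0]; simp [Prod.mk_one_one]
    obtain ⟨u, v, uv, k' | k'⟩ := (hT _).1 (h.mem _ he)
    · rw [k', ← map_pow, ← map_one d, hd.eq_iff, Prod.pow_mk] at e1
      rcases sq u (congrArg Prod.fst e1) with rfl | rfl <;>
        rcases sq v (congrArg Prod.snd e1) with rfl | rfl
      · exact absurd (congrArg Prod.snd (hd (h.inj _ he _ (md 1 1 uv) (k'.trans
          ((map_one d).trans (h0.symm.trans (congrArg Φ (map_one d).symm))))))) g3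
      · exact k'
      · exact absurd (congrArg Prod.snd (hd ((h.stab _ he _ (md (-1) (-1) (by simp)) a2
          (by simp [k', ← map_mul])).trans (map_one d).symm))) g3
      · exact absurd (congrArg Prod.fst (hd (h.inj _ he _ (md _ _ uv) (k'.trans a2.symm)))) g3.symm
    · have := (h.mul _ he _ hx0).symm.trans ((congrArg Φ (by rw [← map_mul, ← map_mul, mul_comm])).trans
        (h.mul _ hx0 _ he))
      rw [k', k, ← mul_assoc, ← h2, mul_assoc, mul_assoc, mul_right_inj, ← map_mul, ← map_mul,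
        hd.eq_iff, mul_comm, mul_left_inj, Prod.mk.injEq] at this
      rw [this.1, a1.2, inv_pow, inv_eq_iff_mul_eq_one, ← pow_add] at a1
      exact absurd a1.1 g2
  have a4 : ∀ u v : Fˣ, u ^ 2 = 1 → v ^ 2 = 1 → Φ (d (u, v)) = d (u, v) := fun u v hu hv => by
    rcases sq u hu with rfl | rfl <;> rcases sq v hv with rfl | rfl
    exacts [(map_one d).symm ▸ h0, a3,
      by simpa [a2, a3, ← map_mul] using h.mul _ he _ (md (-1) (-1) (by simp)), a2]
  have u1 : (g⁻¹ * a) ^ 2 = 1 := by rw [mul_pow, a1.1, ← mul_pow]; simp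
  have u2 : (g * b) ^ 2 = 1 := by rw [mul_pow, a1.2, ← mul_pow]; simp
  have a5 : Φ (d (g, g⁻¹)) = d (g, g⁻¹) := by
    have := h.stab _ hx0 _ (md _ _ (by rw [mul_pow, u1, u2, one_mul])) (a4 _ _ u1 u2)
      (by simp [k, ← map_mul])
    rw [← map_one d, hd.eq_iff, Prod.mk_eq_one, inv_mul_eq_one, mul_eq_one_iff_inv_eq] at this
    rw [k, ← this.2, this.1]
  refine hx' (oddAut_fix h (C := C) ?_ ?_ (s := σ) (fun v hv => ?_) x hx)
  · rintro _ ⟨⟨u, v⟩, k, rfl⟩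
    exact md u v k
  · rintro _ ⟨⟨u, v⟩, k, rfl⟩
    obtain ⟨n, rfl⟩ := hg u
    have := h.mul _ (zpow_mem hx0 n) _ (md 1 (g ^ n * v) (by rwa [one_mul]))
    rw [zp _ hx0 a5 _ (zpow_mem_zpowers _ n), a4 1 (g ^ n * v) (one_pow _) k, ← map_zpow,
      ← map_mul] at this
    simpa using this
  · obtain ⟨a, b, k, rfl | rfl⟩ := (hT _).1 hv
    exacts [.inl ⟨_, k, rfl⟩, .inr ⟨(a, b), k, by rw [← mul_assoc, h1, one_mul]⟩]

end CF.Known
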